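import Cfsg.Agent.H325.IsoExc
import Cfsg.Agent.Mrg.ParSys.FreeTrans
import Cfsg.Agent.S1035

/-!
# The 3-local subgroups of `G₂(3)` (helper815)

`not_dvd_of_core` : a subgroup of `G₂(3)` with `O₃ ≠ 1` has order not divisible by 32 (Borel–Tits).
-/

set_option autoImplicit false
set_option linter.unusedSectionVars false

namespace Cfsg.Agent.H815.G23.Par

open Cfsg
open CoxeterSystem Cfsg.Agent.ChevalleyStructure.CoxeterGeom Cfsg.Agent.Tits.Roots Cfsg.Agent.Tits.Core
  Cfsg.Agent.Tits.RootComb Cfsg.Agent.Nodes.Comb Cfsg.Agent.Nodes.Reps Cfsg.Agent.Nodes.BNOf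
  Cfsg.Agent.Nodes.StabComb Cfsg.Agent.Nodes.Bruhat Cfsg.Agent.Nodes.LeviDec Cfsg.Agent.Nodes.NormalForm
  Cfsg.Agent.ParSys Cfsg.Agent.Tits.Exchange Cfsg.Agent.Omega.EH3Close.CountU
open Cfsg.Agent.Nodes Cfsg.Agent.Nodes.RGDLib Cfsg.Agent.Nodes.RGDChev
open Cfsg.Agent.ChevalleyStructure Cfsg.Agent.ChevalleyStructure.Elts Cfsg.Agent.ChevalleyStructure.NPerm
  Cfsg.Agent.ChevalleyStructure.CoxeterGeomTypes
open Cfsg.Agent.Omega.EH3.Kf Cfsg.Agent.Omega.EH3.Kf.Lev
open Cfsg.Agent.H325.Loc Cfsg.Agent.H325.IsoRgd Cfsg.Agent.KFacts.RgdFilt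
open Cfsg.Agent.H138.SqBase Cfsg.Agent.H138.SqChev Cfsg.Agent.H138.SqChev2
open Cfsg.Lie
open Subgroup (normalizer)

theorem exists_ne {K : Type*} [Field K] [Fintype K] (h : 3 ≤ Fintype.card K) : ∃ t : K, t ≠ 0 ∧ t ≠ 1 := by
  classical
  by_contra hcon
  push Not at hcon
  have h1 : (Finset.univ : Finset K) ⊆ {0, 1} := by
    intro t _
    rw [Finset.mem_insert, Finset.mem_singleton]
    by_cases h0 : t = 0
    · exact Or.inl h0
    · exact Or.inr (hcon t h0)
  have h2 := Finset.card_le_card h1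
  rw [Finset.card_univ] at h2
  have h3 : ({0, 1} : Finset K).card ≤ 2 := Finset.card_le_two
  omega

/-- `|K ⊔ H|` divides `|K| |H|` if `H` normalises `K` -/
theorem card_sup_dvd {G : Type*} [Group G] {K H : Subgroup G} (h : H ≤ normalizer (K : Set G)) :
    Nat.card (K ⊔ H : Subgroup G) ∣ Nat.card K * Nat.card H := by
  have hK : K ≤ normalizer (K : Set G) := Subgroup.le_normalizer
  set N := normalizer (K : Set G) with hN
  have hn : (K.subgroupOf N).Normal := Subgroup.normal_in_normalizer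
  have h1 := Cfsg.Agent.Lib.Cores.card_sup_dvd (K.subgroupOf N) (H.subgroupOf N) hn
  rw [← Subgroup.subgroupOf_sup hK h] at h1
  rw [Nat.card_congr (Subgroup.subgroupOfEquivOfLe (sup_le hK h)).toEquiv,
    Nat.card_congr (Subgroup.subgroupOfEquivOfLe hK).toEquiv,
    Nat.card_congr (Subgroup.subgroupOfEquivOfLe h).toEquiv] at h1
  exact h1

section

variable {I W Y : Type*} [Fintype I] [DecidableEq I] [Group W] [Group Y] {M : CoxeterMatrix I}
  {cs : CoxeterSystem M W} {A : I → I → ℤ} {h : IsCartan M A} {p : ℕ} {T : Subgroup Y} {n : I → Y}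
  {X : (I → ℤ) → Subgroup Y}

theorem PJ_mono [Finite W] (R : RGD cs h p T n X) {J J' : Set I} (hJ : J ⊆ J') : PJ cs h T X J ≤ PJ cs h T X J' := by
  intro g hg
  obtain ⟨w, hw, hc⟩ := (mem_PJ_iff_cell R).1 hg
  exact (mem_PJ_iff_cell R).2 ⟨w, Subgroup.closure_mono (Set.image_mono hJ) hw, hc⟩

/-- the order of a minimal parabolic subgroup -/
theorem card_PJ_dvd [Finite W] [Finite Y] (R : RGD cs h p T n X) (i : I) :
    Nat.card (PJ cs h T X {i}) ∣ (Nat.card (X (sr i)) + 1) * (Nat.card T * Nat.card (RGD.Sup X (RGD.Pos cs h))) := by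
  have h1 := Omega.ThmID.relIndex_P R i
  have hle : RGD.B cs h T X ≤ PJ cs h T X {i} := B_le_PJ
  have h2 := Subgroup.card_mul_index ((RGD.B cs h T X).subgroupOf (PJ cs h T X {i}))
  rw [Nat.card_congr (Subgroup.subgroupOfEquivOfLe hle).toEquiv] at h2
  change _ * (RGD.B cs h T X).relIndex (PJ cs h T X {i}) = _ at h2
  rw [← h2, h1, mul_comm]
  refine Nat.mul_dvd_mul_left _ ?_
  have h3 : RGD.B cs h T X = RGD.Sup X (RGD.Pos cs h) ⊔ T := sup_comm _ _
  rw [h3, mul_comm (Nat.card T)]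
  exact card_sup_dvd R.T_le_normalizer_U

/-- the normaliser of a `p`-subgroup is contained in a minimal parabolic subgroup (rank 2) -/
theorem exists_le {M : CoxeterMatrix (Fin 2)} {cs : CoxeterSystem M W} {A : Fin 2 → Fin 2 → ℤ} {h : IsCartan M A}
    {n : Fin 2 → Y} {X : (Fin 2 → ℤ) → Subgroup Y} [Finite W] [Finite Y] [Fact p.Prime] [IsSimpleGroup Y]
    (hc : ∃ a b : Y, a * b ≠ b * a) (hF : HasFilt p Y) (R : RGD cs h p T n X)
    (hG : Nodes.RGDLib.G1 cs h X = ⊤) {Q : Subgroup Y} (hQ : IsPGroup p Q) (hQ1 : Q ≠ ⊥) :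
    ∃ (g : Y) (i : Fin 2), cj g (normalizer (Q : Set Y)) ≤ PJ cs h T X {i} := by
  obtain ⟨V, hV, hQV, hle, S, hS⟩ := H772.Pearl.exists_par_sylow hF hc hQ hQ1
  have hP : normalizer (V : Set Y) ≠ ⊤ := by
    intro h0
    have hVn : V.Normal := Subgroup.normalizer_eq_top_iff.1 h0
    rcases hVn.eq_bot_or_eq_top with h1 | h1
    · rw [h1, le_bot_iff] at hQV
      exact hQ1 hQV
    · rw [h1] at hV
      have hY : IsPGroup p Y := hV.of_equiv Subgroup.topEquiv
      have hnt : Nontrivial Y := inferInstance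
      have h2 : Nontrivial (Subgroup.center Y) := hY.center_nontrivial
      rcases (inferInstance : (Subgroup.center Y).Normal).eq_bot_or_eq_top with h3 | h3
      · rw [h3] at h2
        exact not_nontrivial _ h2
      · obtain ⟨a, b, hab⟩ := hc
        apply hab
        have : a ∈ Subgroup.center Y := by rw [h3]; trivial
        exact ((Subgroup.mem_center_iff.1 this) b).symm
  have hidx : ¬ p ∣ (normalizer (V : Set Y)).index := by
    intro h1
    exact S.not_dvd_index (h1.trans (Subgroup.index_dvd_of_le hS))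
  obtain ⟨g, K, hK, hle'⟩ := exists_le_PJ R hG _ hP hidx
  have hKi : ∃ i : Fin 2, K ⊆ {i} := by
    by_cases h0 : (0 : Fin 2) ∈ K
    · refine ⟨0, fun j hj => ?_⟩
      by_contra hj0
      apply hK
      ext k
      simp only [Set.mem_univ, iff_true]
      have hj1 : j = 1 := by
        have : j ≠ 0 := hj0
        omega
      subst hj1
      fin_cases k
      · exact h0
      · exact hj
    · refine ⟨1, fun j hj => ?_⟩
      have : j ≠ 0 := by
        rintro rfl
        exact h0 hj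
      show j = 1
      omega
  obtain ⟨i, hi⟩ := hKi
  refine ⟨g, i, ?_⟩
  refine le_trans ?_ (hle'.trans ?_)
  · exact Subgroup.map_mono hle
  · exact PJ_mono R hi

end

/-- **3-local subgroups of `G₂(3)`** -/
theorem not_dvd_of_core {F : Type} [Field F] [Fintype F] (hF : Fintype.card F = 3) {Q : Subgroup ↥(chevG2.group F)}
    (hQ : IsPGroup 3 Q) (hQ1 : Q ≠ ⊥) : ¬ 32 ∣ Nat.card (normalizer (Q : Set ↥(chevG2.group F))) := by
  intro hd
  have : Fact (Nat.Prime 3) := ⟨Nat.prime_three⟩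
  have hch : CharP F 3 := by
    have h1 : ((3 : ℕ) : F) = 0 := by rw [← hF]; exact FiniteField.cast_card_eq_zero F
    obtain ⟨q, hq⟩ := CharP.exists F
    have h2 := (CharP.cast_eq_zero_iff F q 3).1 h1
    rcases (Nat.dvd_prime Nat.prime_three).1 h2 with h3 | h3
    · subst h3
      have h4 : ((1 : ℕ) : F) = 0 := (CharP.cast_eq_zero_iff F 1 1).2 dvd_rfl
      rw [Nat.cast_one] at h4
      exact absurd h4 one_ne_zero
    · rw [← h3]; exact hq
  have hp := FamG2.isType
  have hW : Finite CoxeterMatrix.G₂.Group := finite_W hp CoxeterMatrix.G₂.toCoxeterSystem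
  have hs := Cfsg.Agent.S1055.result (exists_ne (K := F) (by omega))
  have hs1 := hs.1
  obtain ⟨g, i, hle⟩ := exists_le (H325.IsoExc.nc_of hs.2) (Cfsg.Agent.KFacts.RgdFiltChev.hasFilt_G2 F 3)
    (rgd (K := F) hp CoxeterMatrix.G₂.toCoxeterSystem 3) (G1_eq_top hp _) hQ hQ1
  have h1 := card_PJ_dvd (rgd (K := F) hp CoxeterMatrix.G₂.toCoxeterSystem 3) i
  have h2 : Nat.card (cj g (normalizer (Q : Set ↥(chevG2.group F)))) = Nat.card (normalizer (Q : Set ↥(chevG2.group F))) :=
    Subgroup.card_map_of_injective (MulAut.conj g).injective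
  have h3 := (Subgroup.card_dvd_of_le hle).trans h1
  rw [h2] at h3
  rw [card_X hp F i, hF] at h3
  have hT : Nat.card ((chevG2.diagonalSubgroup F).subgroupOf (chevG2.group F)) ∣ 4 := by
    have h4 := Cfsg.Agent.S1035.result (F := F) rfl (chevG2, 1) (by simp)
    rw [hF] at h4
    have h5 : Nat.card (chevG2.diagonalSubgroup F) = 4 := by
      have h6 : 1 * Nat.card (chevG2.diagonalSubgroup F) = (3 - 1) ^ 2 := h4
      omega
    rw [← h5]
    have h7 : Nat.card ((chevG2.diagonalSubgroup F).subgroupOf (chevG2.group F)) =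
        Nat.card (chevG2.diagonalSubgroup F ⊓ chevG2.group F : Subgroup (GL chevG2.Idx F)) := by
      rw [← Subgroup.inf_subgroupOf_right]
      exact Nat.card_congr (Subgroup.subgroupOfEquivOfLe inf_le_right).toEquiv
    rw [h7]
    exact Subgroup.card_dvd_of_le inf_le_left
  have hU := (rgd (K := F) hp CoxeterMatrix.G₂.toCoxeterSystem 3).isPGroup_Upos
  obtain ⟨b, hb⟩ := IsPGroup.iff_card.1 hU
  rw [hb] at h3
  have h8 : 32 ∣ 16 * 3 ^ b := by
    refine (hd.trans h3).trans ?_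
    obtain ⟨c, hc⟩ := hT
    have e : 16 * 3 ^ b = 4 * (4 * 3 ^ b) := by ring
    rw [e]
    refine Nat.mul_dvd_mul (by norm_num) (Nat.mul_dvd_mul ?_ dvd_rfl)
    exact ⟨c, hc⟩
  have h9 : 2 ∣ 3 ^ b := by
    have e : 32 = 16 * 2 := by norm_num
    rw [e] at h8
    exact Nat.dvd_of_mul_dvd_mul_left (by norm_num) h8
  have h10 := Nat.prime_two.dvd_of_dvd_pow h9
  omega

end Cfsg.Agent.H815.G23.Par
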