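import Cfsg.Agent.Lib.HallHigman
import Cfsg.Agent.Lib.Cores
import Cfsg.Agent.S0144

/-!
# Groups of order `2 ^ a * 3 ^ b`, `a ≤ 6`, with elements of order 8 and 9 (helper815)

* `solv_false` : such a group has `O₃ ≠ 1`
-/

set_option autoImplicit false

namespace Cfsg.Agent.H815.G23

open Cfsg
open Cfsg.Agent

theorem dvd_card_of_index {P α : Type*} [Group P] [Finite P] [Finite α] [MulAction P α] {d : ℕ}
    (h : ∀ a : α, d ∣ (MulAction.stabilizer P a).index) : d ∣ Nat.card α := by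
  classical
  have := Fintype.ofFinite (Quotient (MulAction.orbitRel P α))
  rw [Nat.card_congr (MulAction.selfEquivSigmaOrbitsQuotientStabilizer P α), Nat.card_sigma]
  exact Finset.dvd_sum fun ω _ => h _

section

variable {K : Type*} [Group K] [Finite K] {z : K}

/-- the elements of `X` which do not commute with `z ^ 3` -/
abbrev NC (z : K) (X : Subgroup K) : Type _ := {x : X // ¬ (z ^ 3 * (x : K) = x * z ^ 3)}

theorem nine_dvd (hz : orderOf z = 9) (X : Subgroup K) [hX : X.Normal] : 9 ∣ Nat.card (NC z X) := by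
  have hcomm : ∀ g ∈ Subgroup.zpowers z, g * z ^ 3 = z ^ 3 * g := by
    intro g hg
    obtain ⟨i, rfl⟩ := Subgroup.mem_zpowers_iff.1 hg
    exact ((Commute.refl z).zpow_left i).pow_right 3
  let act : MulAction (Subgroup.zpowers z) (NC z X) :=
    { smul := fun g y => ⟨⟨(g : K) * y.1 * (g : K)⁻¹, hX.conj_mem _ y.1.2 _⟩, by
        intro h
        apply y.2
        have h1 := hcomm g g.2
        have h2 : z ^ 3 * ((g : K) * y.1 * (g : K)⁻¹) = (g : K) * y.1 * (g : K)⁻¹ * z ^ 3 := h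
        have h3 : (g : K)⁻¹ * z ^ 3 = z ^ 3 * (g : K)⁻¹ := by
          rw [inv_mul_eq_iff_eq_mul, ← mul_assoc, h1, mul_inv_cancel_right]
        calc z ^ 3 * (y.1 : K) = (g : K)⁻¹ * (g * z ^ 3) * y.1 := by group
          _ = (g : K)⁻¹ * (z ^ 3 * g) * y.1 := by rw [h1]
          _ = (g : K)⁻¹ * (z ^ 3 * ((g : K) * y.1 * (g : K)⁻¹)) * g := by group
          _ = (g : K)⁻¹ * ((g : K) * y.1 * (g : K)⁻¹ * z ^ 3) * g := by rw [h2]
          _ = (y.1 : K) * ((g : K)⁻¹ * z ^ 3) * g := by group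
          _ = (y.1 : K) * (z ^ 3 * (g : K)⁻¹) * g := by rw [h3]
          _ = (y.1 : K) * z ^ 3 := by group⟩
      one_smul := fun y => Subtype.ext (Subtype.ext (by
        show (1 : K) * y.1 * (1 : K)⁻¹ = y.1
        group))
      mul_smul := fun g h y => Subtype.ext (Subtype.ext (by
        show ((g : K) * h) * y.1 * ((g : K) * h)⁻¹ = (g : K) * ((h : K) * y.1 * (h : K)⁻¹) * (g : K)⁻¹
        group)) }
  refine dvd_card_of_index (P := Subgroup.zpowers z) fun y => ?_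
  set S := MulAction.stabilizer (Subgroup.zpowers z) y with hS
  have h1 : S.index ∣ 3 ^ 2 := by
    refine S.index_dvd_card.trans ?_
    rw [Nat.card_zpowers, hz]
    norm_num
  obtain ⟨j, hj, hj2⟩ := (Nat.dvd_prime_pow Nat.prime_three).1 h1
  by_cases hj3 : j = 2
  · rw [hj2, hj3]
    norm_num
  exfalso
  have hn : S.Normal := by
    refine ⟨fun a ha g => ?_⟩
    have hc : g * a = a * g := by
      obtain ⟨_, i, rfl⟩ := g
      obtain ⟨_, k, rfl⟩ := a
      apply Subtype.ext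
      show z ^ i * z ^ k = z ^ k * z ^ i
      rw [← zpow_add, ← zpow_add, add_comm]
    rw [hc, mul_inv_cancel_right]
    exact ha
  have h3 : (⟨z, Subgroup.mem_zpowers z⟩ : Subgroup.zpowers z) ^ S.index ∈ S := Subgroup.pow_index_mem S _
  have h4 : (⟨z, Subgroup.mem_zpowers z⟩ : Subgroup.zpowers z) ^ 3 ∈ S := by
    have h5 : S.index ∣ 3 := by
      rw [hj2]
      calc 3 ^ j ∣ 3 ^ 1 := pow_dvd_pow 3 (by omega)
        _ = 3 := pow_one 3
    obtain ⟨c, hc⟩ := h5
    rw [hc, pow_mul]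
    exact S.pow_mem h3 c
  rw [hS, MulAction.mem_stabilizer_iff] at h4
  apply y.2
  have h5 : z ^ 3 * (y.1 : K) * (z ^ 3)⁻¹ = y.1 := congrArg (fun w : NC z X => ((w.1 : X) : K)) h4
  calc z ^ 3 * (y.1 : K) = (z ^ 3 * (y.1 : K) * (z ^ 3)⁻¹) * z ^ 3 := by group
    _ = y.1 * z ^ 3 := by rw [h5]

theorem arith : ∀ m < 7, ∀ j < m, ∀ k < 8, 2 ^ m = 2 ^ j + 9 * k → m = 6 ∧ j = 0 := by decide

/-- the count -/
theorem count (hz : orderOf z = 9) (X : Subgroup K) [hX : X.Normal] {m : ℕ} (hm : m ≤ 6) (hc : Nat.card X = 2 ^ m)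
    {x : K} (hx : x ∈ X) (hxz : z ^ 3 * x ≠ x * z ^ 3) :
    m = 6 ∧ ∀ w ∈ X, z ^ 3 * w = w * z ^ 3 → w = 1 := by
  classical
  have h9 := nine_dvd hz X
  obtain ⟨k, hk⟩ := h9
  let C : Subgroup X := (Subgroup.centralizer ({z ^ 3} : Set K)).subgroupOf X
  have hmem : ∀ w : X, w ∈ C ↔ z ^ 3 * (w : K) = w * z ^ 3 := by
    intro w
    rw [Subgroup.mem_subgroupOf, Subgroup.mem_centralizer_singleton_iff]
    exact eq_comm
  have hsum : Nat.card X = Nat.card C + Nat.card (NC z X) := by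
    have e : ({w : X // w ∈ C} ⊕ {w : X // ¬ w ∈ C}) ≃ X := Equiv.sumCompl fun w => w ∈ C
    rw [← Nat.card_congr e, Nat.card_sum]
    congr 1
    exact Nat.card_congr (Equiv.subtypeEquivRight fun w => not_congr (hmem w))
  have hCd : Nat.card C ∣ 2 ^ m := by
    rw [← hc]
    exact Subgroup.card_subgroup_dvd_card C
  obtain ⟨j, hj, hj2⟩ := (Nat.dvd_prime_pow Nat.prime_two).1 hCd
  have hne : j ≠ m := by
    rintro rfl
    have h1 : Nat.card (NC z X) = 0 := by omega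
    have h2 : Nonempty (NC z X) := ⟨⟨⟨x, hx⟩, hxz⟩⟩
    exact Nat.card_pos.ne' h1
  have h3 : 2 ^ m ≤ 2 ^ 6 := Nat.pow_le_pow_right (by norm_num) hm
  rw [hc, hj2, hk] at hsum
  obtain ⟨h4, h5⟩ := arith m (by omega) j (by omega) k (by omega) hsum
  refine ⟨h4, fun w hw hwz => ?_⟩
  have h6 : C = ⊥ := Subgroup.card_eq_one.1 (by rw [hj2, h5, pow_zero])
  have h7 : (⟨w, hw⟩ : X) ∈ C := (hmem _).2 hwz
  rw [h6, Subgroup.mem_bot] at h7
  exact congrArg Subtype.val h7

/-- **elements of order 8 and 9 in a group of order `2 ^ a * 3 ^ b`** -/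
theorem solv_false (hd : Nat.card K ∣ 2 ^ 6 * 3 ^ 6) (h3 : pCore 3 K = ⊥) (hz : orderOf z = 9) {y : K}
    (hy : orderOf y = 8) : False := by
  have f2 : Fact (Nat.Prime 2) := ⟨Nat.prime_two⟩
  have f3 : Fact (Nat.Prime 3) := ⟨Nat.prime_three⟩
  have hcard : ∃ a b : ℕ, a ≤ 6 ∧ Nat.card K = 2 ^ a * 3 ^ b := by
    obtain ⟨c, d, hc, hd', hcd⟩ := (Nat.dvd_mul).1 hd
    obtain ⟨a, ha, rfl⟩ := (Nat.dvd_prime_pow Nat.prime_two).1 hc
    obtain ⟨b, -, rfl⟩ := (Nat.dvd_prime_pow Nat.prime_three).1 hd'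
    exact ⟨a, b, ha, hcd.symm⟩
  obtain ⟨a, b, ha, hab⟩ := hcard
  have hsol : Group.IsSolvable K := Cfsg.Agent.S0144.result 2 3 a b Nat.prime_two Nat.prime_three hab
  -- `O_{2'}(K) = 1`
  have h2 : pPrimeCore 2 K = ⊥ := by
    rw [eq_bot_iff, ← h3]
    have hn : (pPrimeCore 2 K).Normal := Lib.Cores.pPrimeCore_normal 2
    refine Lib.Cores.le_pCore hn ?_
    have h4 := Lib.Cores.pPrimeCore_coprime (G := K) 2
    have h5 : Nat.card (pPrimeCore 2 K) ∣ 3 ^ b := by
      have h6 := Subgroup.card_subgroup_dvd_card (pPrimeCore 2 K)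
      rw [hab] at h6
      exact (h4.pow_right a).dvd_of_dvd_mul_left h6
    obtain ⟨i, -, hi⟩ := (Nat.dvd_prime_pow Nat.prime_three).1 h5
    exact IsPGroup.of_card hi
  have hcent := Lib.HallHigman.centralizer_pCore_le_of_solvable 2 h2
  set V := pCore 2 K with hV
  have hVn : V.Normal := Lib.Cores.pCore_normal 2
  have hVp : IsPGroup 2 V := Lib.Cores.pCore_isPGroup 2
  obtain ⟨m, hm⟩ := IsPGroup.iff_card.1 hVp
  have hm6 : m ≤ a := by
    have h6 := Subgroup.card_subgroup_dvd_card V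
    rw [hab, hm] at h6
    have h7 : 2 ^ m ∣ 2 ^ a := by
      refine Nat.Coprime.dvd_of_dvd_mul_right ?_ h6
      exact Nat.Coprime.pow _ _ (by norm_num)
    exact (Nat.pow_dvd_pow_iff_le_right (by norm_num)).1 h7
  have ht : orderOf (z ^ 3) = 3 := by
    rw [orderOf_pow_of_dvd (by norm_num) (by rw [hz]; norm_num), hz]
  have htV : z ^ 3 ∉ V := by
    intro h
    obtain ⟨k, hk⟩ := IsPGroup.iff_orderOf.1 hVp ⟨z ^ 3, h⟩
    rw [Subgroup.orderOf_mk, ht] at hk
    have h8 : 3 ∣ 2 ^ k := by rw [← hk]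
    have := Nat.prime_three.dvd_of_dvd_pow h8
    omega
  obtain ⟨x, hx, hxz⟩ : ∃ x ∈ V, z ^ 3 * x ≠ x * z ^ 3 := by
    by_contra hcon
    push Not at hcon
    apply htV
    apply hcent
    rw [Subgroup.mem_centralizer_iff]
    intro w hw
    exact (hcon w hw).symm
  obtain ⟨hm', hfix⟩ := count hz V (by omega) hm hx hxz
  -- the characteristic subgroup
  let Z : Subgroup K :=
    { carrier := {v | v ∈ V ∧ (∀ w ∈ V, v * w = w * v) ∧ v ^ 2 = 1}
      one_mem' := ⟨V.one_mem, fun w _ => by rw [one_mul, mul_one], one_pow 2⟩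
      mul_mem' := by
        rintro u v ⟨hu1, hu2, hu3⟩ ⟨hv1, hv2, hv3⟩
        refine ⟨V.mul_mem hu1 hv1, fun w hw => ?_, ?_⟩
        · rw [mul_assoc, hv2 w hw, ← mul_assoc, hu2 w hw, mul_assoc]
        · have h : Commute u v := hu2 v hv1
          rw [h.mul_pow, hu3, hv3, one_mul]
      inv_mem' := by
        rintro u ⟨hu1, hu2, hu3⟩
        refine ⟨V.inv_mem hu1, fun w hw => ?_, ?_⟩
        · have h : Commute u w := hu2 w hw
          exact h.inv_left
        · rw [inv_pow, hu3, inv_one] }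
  have hZn : Z.Normal := by
    refine ⟨fun u hu g => ?_⟩
    obtain ⟨hu1, hu2, hu3⟩ := hu
    refine ⟨hVn.conj_mem _ hu1 g, fun w hw => ?_, ?_⟩
    · have h := hu2 _ (hVn.conj_mem _ hw g⁻¹)
      rw [inv_inv] at h
      calc g * u * g⁻¹ * w = g * (u * (g⁻¹ * w * g)) * g⁻¹ := by group
        _ = g * ((g⁻¹ * w * g) * u) * g⁻¹ := by rw [h]
        _ = w * (g * u * g⁻¹) := by group
    · rw [conj_pow, hu3, mul_one, mul_inv_cancel]
  have hZV : Z ≤ V := fun u hu => hu.1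
  have hVnt : Nontrivial V := by
    rw [← Finite.one_lt_card_iff_nontrivial, hm, hm']
    norm_num
  have hcn := hVp.center_nontrivial
  have hcp : IsPGroup 2 (Subgroup.center V) := hVp.to_subgroup _
  obtain ⟨c', hc'⟩ : ∃ c' : Subgroup.center V, orderOf c' = 2 := by
    refine exists_prime_orderOf_dvd_card' 2 ?_
    obtain ⟨i, hi⟩ := IsPGroup.iff_card.1 hcp
    have h9 := Finite.one_lt_card (α := Subgroup.center V)
    rw [hi] at h9 ⊢
    exact dvd_pow_self 2 (by rintro rfl; simp at h9)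
  set u : K := ((c' : V) : K) with hu
  have huZ : u ∈ Z := by
    refine ⟨(c' : V).2, fun w hw => ?_, ?_⟩
    · have := Subgroup.mem_center_iff.1 c'.2 ⟨w, hw⟩
      exact (congrArg Subtype.val this).symm
    · have h10 : c' ^ 2 = 1 := by rw [← hc', pow_orderOf_eq_one]
      have h11 : ((c' : V) : K) ^ 2 = 1 := by
        have := congrArg (fun w : Subgroup.center V => ((w : V) : K)) h10
        simpa using this
      exact h11
  have hu1 : u ≠ 1 := by
    intro h
    have h12 : c' = 1 := Subtype.ext (Subtype.ext h)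
    rw [h12, orderOf_one] at hc'
    omega
  have hZc : ∃ i, i ≤ 6 ∧ Nat.card Z = 2 ^ i := by
    have h13 : Nat.card Z ∣ 2 ^ m := by
      rw [← hm]
      exact Subgroup.card_dvd_of_le hZV
    obtain ⟨i, hi, hi2⟩ := (Nat.dvd_prime_pow Nat.prime_two).1 h13
    exact ⟨i, by omega, hi2⟩
  obtain ⟨i, hi6, hiZ⟩ := hZc
  obtain ⟨hi', -⟩ := count hz Z hi6 hiZ huZ (fun h => hu1 (hfix u (hZV huZ) h))
  have hZeq : Z = V := Subgroup.eq_of_le_of_card_ge hZV (by rw [hm, hiZ, hi', hm'])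
  -- `y ∈ V`
  have hyV : y ∈ V := by
    rw [← QuotientGroup.eq_one_iff (N := V)]
    change QuotientGroup.mk' V y = 1
    rw [← orderOf_eq_one_iff]
    have h14 : orderOf (QuotientGroup.mk' V y) ∣ 8 := by
      rw [← hy]
      exact orderOf_map_dvd _ _
    have h15 : orderOf (QuotientGroup.mk' V y) ∣ 3 ^ b := by
      refine (orderOf_dvd_natCard _).trans ?_
      have h16 := Subgroup.card_eq_card_quotient_mul_card_subgroup V
      rw [hab, hm, hm'] at h16
      have ha6 : a = 6 := by omega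
      rw [ha6, mul_comm] at h16
      exact ⟨1, by rw [mul_one]; exact Nat.eq_of_mul_eq_mul_right (by norm_num) h16⟩
    exact Nat.eq_one_of_dvd_coprimes (Nat.Coprime.pow_right b (by norm_num)) h14 h15
  rw [← hZeq] at hyV
  have h17 := orderOf_dvd_of_pow_eq_one hyV.2.2
  rw [hy] at h17
  omega

end

end Cfsg.Agent.H815.G23
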