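import Mathlib

/-!
# Elements of order 8 in a group whose Sylow 2-subgroups have order at most 16 (helper815)

* `conj_sq` : `a`, `b` of order 8, `32 ∤ |R|`: `b ^ 2` is conjugate to `a ^ 2` or to `a ^ 6`
-/

set_option autoImplicit false

namespace Cfsg.Agent.H815.G23

theorem conj_sq {R : Type*} [Group R] [Finite R] (h32 : ¬ 32 ∣ Nat.card R) {a b : R} (ha : orderOf a = 8)
    (hb : orderOf b = 8) : ∃ g : R, g * a ^ 2 * g⁻¹ = b ^ 2 ∨ g * a ^ 6 * g⁻¹ = b ^ 2 := by
  have f2 : Fact (Nat.Prime 2) := ⟨Nat.prime_two⟩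
  have hpa : IsPGroup 2 (Subgroup.zpowers a) := IsPGroup.of_card (n := 3) (by rw [Nat.card_zpowers, ha]; norm_num)
  have hpb : IsPGroup 2 (Subgroup.zpowers b) := IsPGroup.of_card (n := 3) (by rw [Nat.card_zpowers, hb]; norm_num)
  obtain ⟨P, hP⟩ := hpa.exists_le_sylow
  obtain ⟨P', hP'⟩ := hpb.exists_le_sylow
  obtain ⟨g, hg⟩ := MulAction.exists_smul_eq R P' P
  have haP : a ∈ (P : Subgroup R) := hP (Subgroup.mem_zpowers a)
  have hbP : g * b * g⁻¹ ∈ (P : Subgroup R) := by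
    rw [← hg]
    exact ⟨b, hP' (Subgroup.mem_zpowers b), rfl⟩
  -- the order of `P`
  obtain ⟨k, hk⟩ := IsPGroup.iff_card.1 P.isPGroup'
  have hk4 : k ≤ 4 := by
    by_contra hk5
    apply h32
    have h1 : 2 ^ 5 ∣ Nat.card (P : Subgroup R) := by
      rw [hk]
      exact pow_dvd_pow 2 (by omega)
    exact (by norm_num : (32 : ℕ) = 2 ^ 5) ▸ h1.trans (Subgroup.card_subgroup_dvd_card _)
  let a' : (P : Subgroup R) := ⟨a, haP⟩
  let b' : (P : Subgroup R) := ⟨g * b * g⁻¹, hbP⟩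
  have ha' : orderOf a' = 8 := by rw [← ha]; exact Subgroup.orderOf_mk a haP
  have hb' : orderOf b' = 8 := by
    rw [← hb]
    refine (Subgroup.orderOf_mk _ hbP).trans ?_
    exact orderOf_injective (MulAut.conj g).toMonoidHom (MulAut.conj g).injective b
  have hidx := Subgroup.card_mul_index (Subgroup.zpowers a')
  rw [Nat.card_zpowers, ha', hk] at hidx
  have hidx2 : (Subgroup.zpowers a').index ∣ 2 := by
    have h1 : 2 ^ k ∣ 2 ^ 4 := pow_dvd_pow 2 hk4
    rw [← hidx] at h1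
    have e : 2 ^ 4 = 8 * 2 := by norm_num
    rw [e] at h1
    exact Nat.dvd_of_mul_dvd_mul_left (by norm_num) h1
  have hn : (Subgroup.zpowers a').Normal := by
    rcases (Nat.dvd_prime Nat.prime_two).1 hidx2 with h1 | h1
    · have h2 := Subgroup.index_eq_one.1 h1
      rw [h2]
      infer_instance
    · exact Subgroup.normal_of_index_eq_two h1
  have hb2 : b' ^ 2 ∈ Subgroup.zpowers a' := by
    have h1 := Subgroup.pow_index_mem (Subgroup.zpowers a') b'
    obtain ⟨c, hc⟩ := hidx2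
    have h2 := Subgroup.pow_mem _ h1 c
    rw [← pow_mul, ← hc] at h2
    exact h2
  obtain ⟨j, hj⟩ := (isOfFinOrder_of_finite a').mem_powers_iff_mem_zpowers.2 hb2
  have hj' : a' ^ j = b' ^ 2 := hj
  have ho : orderOf (a' ^ j) = 4 := by
    rw [hj', orderOf_pow_of_dvd (by norm_num) (by rw [hb']; norm_num), hb']
  rw [orderOf_pow, ha'] at ho
  have hmod : a' ^ j = a' ^ (j % 8) := by rw [← ha', pow_mod_orderOf]
  have hg8 : Nat.gcd 8 j = Nat.gcd 8 (j % 8) := by
    rw [Nat.gcd_rec 8 j, Nat.gcd_comm]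
  rw [hg8] at ho
  have hjlt : j % 8 < 8 := Nat.mod_lt _ (by norm_num)
  have hj26 : j % 8 = 2 ∨ j % 8 = 6 := by
    have key : ∀ i < 8, 8 / Nat.gcd 8 i = 4 → i = 2 ∨ i = 6 := by decide
    exact key _ hjlt ho
  rw [hmod] at hj'
  have hfin : a ^ (j % 8) = g * b ^ 2 * g⁻¹ := by
    have h1 := congrArg Subtype.val hj'
    change a ^ (j % 8) = (g * b * g⁻¹) ^ 2 at h1
    rw [h1, conj_pow]
  refine ⟨g⁻¹, ?_⟩
  rcases hj26 with h | h
  · left
    rw [h] at hfin
    rw [hfin]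
    group
  · right
    rw [h] at hfin
    rw [hfin]
    group

end Cfsg.Agent.H815.G23
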