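import Mathlib
import Cfsg.Agent.ClassicalGeometry.PSUAutBasic

/-!
# Linear groups in dimension `p` and characteristic `p`; elements of order 4 of `SL₃(3)` (helper815)

* `pow_of_char` : unipotent matrices of dimension at most `p ^ j` have exponent `p ^ j`
* `slEquiv` : `SL_p(K) ≃* PSL_p(K)` in characteristic `p`
* `psl_pow`, `psu_pow` : exponent `p` of the `p`-elements
* `conj_four` : the elements of order 4 of `SL₃(F)` are conjugate if `-1` is not a square in `F`
-/

set_option autoImplicit false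

namespace Cfsg.Agent.H815.G23.Lin

open Matrix

section Uni

variable {K : Type*} [Field K]

theorem pow_card_of_nilp {n : ℕ} (M : Matrix (Fin n) (Fin n) K) (h : IsNilpotent M) : M ^ n = 0 := by
  have h1 := Matrix.isNilpotent_charpoly_sub_pow_of_isNilpotent h
  have h2 : M.charpoly = Polynomial.X ^ n := by
    have := h1.eq_zero
    rw [Fintype.card_fin] at this
    exact sub_eq_zero.1 this
  have h3 := M.aeval_self_charpoly
  rw [h2, map_pow, Polynomial.aeval_X] at h3
  exact h3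

theorem sl_pow_iff {n : ℕ} (g : Matrix.SpecialLinearGroup (Fin n) K) (m : ℕ) :
    g ^ m = 1 ↔ (g : Matrix (Fin n) (Fin n) K) ^ m = 1 := by
  constructor
  · intro h
    rw [← Matrix.SpecialLinearGroup.coe_pow, h, Matrix.SpecialLinearGroup.coe_one]
  · intro h
    apply Subtype.ext
    have h1 := Matrix.SpecialLinearGroup.coe_pow g m
    exact h1.trans h

/-- unipotent matrices -/
theorem pow_of_char {p : ℕ} [Fact p.Prime] [CharP K p] {n k j : ℕ} (M : Matrix (Fin n) (Fin n) K)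
    (h : M ^ p ^ k = 1) (hj : n ≤ p ^ j) : M ^ p ^ j = 1 := by
  rcases Nat.eq_zero_or_pos n with rfl | hn
  · exact Subsingleton.elim _ _
  have hne : Nonempty (Fin n) := ⟨⟨0, hn⟩⟩
  have hch : CharP (Matrix (Fin n) (Fin n) K) p := Matrix.charP p
  have hE : ExpChar (Matrix (Fin n) (Fin n) K) p := ExpChar.prime Fact.out
  have h1 : IsNilpotent (M - 1) := by
    refine ⟨p ^ k, ?_⟩
    rw [sub_pow_char_pow_of_commute p k (Commute.one_right M), h, one_pow, sub_self]
  have h2 := pow_card_of_nilp _ h1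
  have h3 : (M - 1) ^ p ^ j = 0 := by
    obtain ⟨t, ht⟩ := Nat.exists_eq_add_of_le hj
    rw [ht, pow_add, h2, zero_mul]
  rw [sub_pow_char_pow_of_commute p j (Commute.one_right M), one_pow] at h3
  exact sub_eq_zero.1 h3

end Uni

section Proj

variable {K : Type*} [Field K] {p : ℕ} [hp : Fact p.Prime] [CharP K p]

theorem root_one {r : K} (h : r ^ p = 1) : r = 1 := by
  have h1 : (r - 1) ^ p = 0 := by rw [sub_pow_char, h, one_pow, sub_self]
  exact sub_eq_zero.1 (pow_eq_zero_iff hp.1.ne_zero |>.1 h1)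

theorem center_sl : Subgroup.center (Matrix.SpecialLinearGroup (Fin p) K) = ⊥ := by
  rw [eq_bot_iff]
  intro A hA
  obtain ⟨r, hr, hA'⟩ := Matrix.SpecialLinearGroup.mem_center_iff.1 hA
  rw [Fintype.card_fin] at hr
  rw [root_one hr, map_one] at hA'
  rw [Subgroup.mem_bot]
  exact Subtype.ext hA'.symm

/-- `PSL_p(K) ≃* SL_p(K)` in characteristic `p` -/
noncomputable def slEquiv : Matrix.ProjectiveSpecialLinearGroup (Fin p) K ≃* Matrix.SpecialLinearGroup (Fin p) K :=
  (QuotientGroup.quotientMulEquivOfEq center_sl).trans QuotientGroup.quotientBot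

theorem psl_pow {x : Matrix.ProjectiveSpecialLinearGroup (Fin p) K} {k : ℕ} (hx : x ^ p ^ k = 1) : x ^ p = 1 := by
  have h1 : (slEquiv x) ^ p ^ k = 1 := by rw [← map_pow, hx, map_one]
  have h3 := pow_of_char (p := p) (j := 1) _ ((sl_pow_iff _ _).1 h1) (by rw [pow_one])
  rw [pow_one] at h3
  have h4 : (slEquiv x) ^ p = 1 := (sl_pow_iff _ _).2 h3
  apply slEquiv.injective
  rw [map_pow, h4, map_one]

end Proj

open Cfsg.Agent.ClassicalGeometry.PSUAutBasic in
theorem psu_pow {F : Type*} [Field F] [Fintype F] {q : ℕ} (hF : Fintype.card F = q ^ 2) [CharP F 3]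
    {x : Cfsg.PSU 3 F q} {k : ℕ} (hx : x ^ 3 ^ k = 1) : x ^ 3 = 1 := by
  have : Fact (Nat.Prime 3) := ⟨Nat.prime_three⟩
  obtain ⟨a, rfl, l, hl⟩ := exists_lift hF le_rfl hx
  have h2 : (a : Matrix.SpecialLinearGroup (Fin 3) F) ^ 3 ^ l = 1 := by
    rw [← Subgroup.coe_pow, hl, Subgroup.coe_one]
  have h3 := pow_of_char (p := 3) (j := 1) _ ((sl_pow_iff _ _).1 h2) (by norm_num)
  rw [pow_one] at h3
  have h4 : a ^ 3 = 1 := by
    apply Subtype.ext
    rw [Subgroup.coe_pow, Subgroup.coe_one]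
    exact (sl_pow_iff _ _).2 h3
  rw [← map_pow, h4, map_one]

/-! ### elements of order 4 of `SL₃` -/

section Four

variable {F : Type*} [Field F]

/-- the normal form -/
def D0 (c : F) : Matrix (Fin 3) (Fin 3) F := !![c, 0, 0; 0, 0, -1; 0, 1, 0]

/-- the matrix with given columns -/
def cols (w v u : Fin 3 → F) : Matrix (Fin 3) (Fin 3) F := Matrix.of fun i j => ![w i, v i, u i] j

theorem cols_mulVec (w v u x : Fin 3 → F) : cols w v u *ᵥ x = x 0 • w + x 1 • v + x 2 • u := by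
  funext i
  simp only [cols, Matrix.mulVec, dotProduct, Matrix.of_apply, Fin.sum_univ_three, Matrix.cons_val_zero,
    Matrix.cons_val_one, Matrix.cons_val, Pi.add_apply, Pi.smul_apply, smul_eq_mul]
  ring

theorem mul_cols (A : Matrix (Fin 3) (Fin 3) F) (w v u : Fin 3 → F) :
    A * cols w v u = cols (A *ᵥ w) (A *ᵥ v) (A *ᵥ u) := by
  ext i j
  fin_cases j <;> simp [cols, Matrix.mul_apply, Matrix.mulVec, dotProduct]

theorem cols_mul_D0 (c : F) (w v u : Fin 3 → F) : cols w v u * D0 c = cols (c • w) u (-v) := by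
  ext i j
  fin_cases j <;> simp [cols, D0, Matrix.mul_apply, Fin.sum_univ_three, mul_comm]

theorem det_cols_smul (a : F) (w v u : Fin 3 → F) : (cols (a • w) v u).det = a * (cols w v u).det := by
  simp only [Matrix.det_fin_three, cols, Matrix.of_apply, Matrix.cons_val_zero,
    Matrix.cons_val_one, Matrix.cons_val, Pi.smul_apply, smul_eq_mul]
  ring

theorem det_D0 (c : F) : (D0 c).det = c := by
  simp [D0, Matrix.det_fin_three]

theorem exists_vec {M : Matrix (Fin 3) (Fin 3) F} (h : M ≠ 0) : ∃ u : Fin 3 → F, M *ᵥ u ≠ 0 := by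
  by_contra hc
  push Not at hc
  apply h
  ext i j
  have h1 := congrFun (hc (Pi.single j 1)) i
  rw [Matrix.mulVec_single_one] at h1
  exact h1

theorem exists_form (h2 : (2 : F) ≠ 0) (hsq : ∀ a : F, a ^ 2 ≠ -1) {A : Matrix (Fin 3) (Fin 3) F}
    (hdet : A.det = 1) (h4 : A ^ 4 = 1) (hA : A ^ 2 ≠ 1) :
    ∃ P : Matrix (Fin 3) (Fin 3) F, P.det = 1 ∧ A * P = P * D0 1 := by
  have hAA : (A ^ 2 - 1) * (A ^ 2 + 1) = 0 := by
    have : (A ^ 2 - 1) * (A ^ 2 + 1) = A ^ 4 - 1 := by noncomm_ring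
    rw [this, h4, sub_self]
  have hAA' : (A ^ 2 + 1) * (A ^ 2 - 1) = 0 := by
    have : (A ^ 2 + 1) * (A ^ 2 - 1) = A ^ 4 - 1 := by noncomm_ring
    rw [this, h4, sub_self]
  have hsqv : ∀ u : Fin 3 → F, A *ᵥ (A *ᵥ u) = (A ^ 2) *ᵥ u := by
    intro u
    rw [Matrix.mulVec_mulVec, pow_two]
  -- the vector `v`
  obtain ⟨u, hu⟩ := exists_vec (sub_ne_zero.2 hA)
  set v := (A ^ 2 - 1) *ᵥ u with hv
  have hv2 : A *ᵥ (A *ᵥ v) = -v := by
    have h := congrArg (fun M => M *ᵥ u) hAA'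
    simp only [Matrix.zero_mulVec] at h
    rw [← Matrix.mulVec_mulVec, ← hv, Matrix.add_mulVec, Matrix.one_mulVec] at h
    rw [hsqv]
    exact eq_neg_of_add_eq_zero_left h
  -- the vector `w`
  have hne : A ^ 2 + 1 ≠ 0 := by
    intro h
    have h5 : A ^ 2 = -1 := eq_neg_of_add_eq_zero_left h
    have h6 := congrArg Matrix.det h5
    rw [Matrix.det_pow, hdet, one_pow, Matrix.det_neg, Matrix.det_one, Fintype.card_fin] at h6
    apply h2
    linear_combination h6
  obtain ⟨u', hu'⟩ := exists_vec hne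
  set w' := (A ^ 2 + 1) *ᵥ u' with hw'
  have hw2 : A *ᵥ (A *ᵥ w') = w' := by
    have h := congrArg (fun M => M *ᵥ u') hAA
    simp only [Matrix.zero_mulVec] at h
    rw [← Matrix.mulVec_mulVec, ← hw', Matrix.sub_mulVec, Matrix.one_mulVec] at h
    rw [hsqv]
    exact sub_eq_zero.1 h
  obtain ⟨w, c, hw0, hwc, hwA⟩ : ∃ (w : Fin 3 → F) (c : F), w ≠ 0 ∧ c ^ 2 = 1 ∧ A *ᵥ w = c • w := by
    by_cases h : A *ᵥ w' + w' = 0
    · refine ⟨w', -1, hu', by ring, ?_⟩
      rw [neg_one_smul]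
      exact eq_neg_of_add_eq_zero_left h
    · refine ⟨A *ᵥ w' + w', 1, h, by ring, ?_⟩
      rw [Matrix.mulVec_add, hw2, one_smul, add_comm]
  have hwAA : A *ᵥ (A *ᵥ w) = w := by
    rw [hwA, Matrix.mulVec_smul, hwA, smul_smul, ← pow_two, hwc, one_smul]
  -- independence
  have hP : (cols w v (A *ᵥ v)).det ≠ 0 := by
    intro h0
    obtain ⟨x, hx0, hx⟩ := Matrix.exists_mulVec_eq_zero_iff.2 h0
    rw [cols_mulVec] at hx
    have e1 : A *ᵥ (A *ᵥ (x 0 • w + x 1 • v + x 2 • (A *ᵥ v))) = x 0 • w - x 1 • v - x 2 • (A *ᵥ v) := by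
      simp only [Matrix.mulVec_add, Matrix.mulVec_smul, hwAA, hv2, Matrix.mulVec_neg, smul_neg]
      abel
    rw [hx, Matrix.mulVec_zero, Matrix.mulVec_zero] at e1
    have e2 : (2 * x 0) • w = 0 := by
      have : (2 * x 0) • w = (x 0 • w + x 1 • v + x 2 • (A *ᵥ v)) + (x 0 • w - x 1 • v - x 2 • (A *ᵥ v)) := by
        rw [two_mul, add_smul]
        abel
      rw [this, hx, ← e1, add_zero]
    have hx00 : x 0 = 0 := by
      rcases smul_eq_zero.1 e2 with h | h
      · exact (mul_eq_zero.1 h).resolve_left h2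
      · exact absurd h hw0
    rw [hx00, zero_smul, zero_add] at hx
    have e3 : A *ᵥ (x 1 • v + x 2 • (A *ᵥ v)) = x 1 • (A *ᵥ v) - x 2 • v := by
      rw [Matrix.mulVec_add, Matrix.mulVec_smul, Matrix.mulVec_smul, hv2, smul_neg, sub_eq_add_neg]
    rw [hx, Matrix.mulVec_zero] at e3
    have e4 : (x 1 ^ 2 + x 2 ^ 2) • v = 0 := by
      have : (x 1 ^ 2 + x 2 ^ 2) • v = x 1 • (x 1 • v + x 2 • (A *ᵥ v)) - x 2 • (x 1 • (A *ᵥ v) - x 2 • v) := by
        rw [smul_add, smul_sub, smul_smul, smul_smul, smul_smul, smul_smul, add_smul, mul_comm (x 2) (x 1),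
          pow_two, pow_two]
        abel
      rw [this, hx, ← e3, smul_zero, smul_zero, sub_zero]
    have e5 : x 1 ^ 2 + x 2 ^ 2 = 0 := (smul_eq_zero.1 e4).resolve_right hu
    have hx2 : x 2 = 0 := by
      by_contra hne2
      apply hsq (x 1 / x 2)
      rw [div_pow, div_eq_iff (pow_ne_zero 2 hne2)]
      linear_combination e5
    have hx1 : x 1 = 0 := by
      rw [hx2] at e5
      have : x 1 ^ 2 = 0 := by linear_combination e5
      exact pow_eq_zero_iff (two_ne_zero) |>.1 this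
    apply hx0
    funext i
    fin_cases i
    · exact hx00
    · exact hx1
    · exact hx2
  have hAP : ∀ a : F, A * cols (a • w) v (A *ᵥ v) = cols (a • w) v (A *ᵥ v) * D0 c := by
    intro a
    rw [mul_cols, cols_mul_D0, hv2, Matrix.mulVec_smul, hwA, smul_comm]
  have hc : c = 1 := by
    have h := congrArg Matrix.det (hAP 1)
    rw [one_smul, Matrix.det_mul, Matrix.det_mul, hdet, det_D0, one_mul] at h
    exact mul_left_cancel₀ hP (by rw [← h, mul_one])
  subst hc
  refine ⟨cols ((cols w v (A *ᵥ v)).det⁻¹ • w) v (A *ᵥ v), ?_, hAP _⟩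
  rw [det_cols_smul, inv_mul_cancel₀ hP]

/-- **the elements of order 4 of `SL₃(F)` are conjugate** -/
theorem conj_four (h2 : (2 : F) ≠ 0) (hsq : ∀ a : F, a ^ 2 ≠ -1) {x y : Matrix.SpecialLinearGroup (Fin 3) F}
    (hx : orderOf x = 4) (hy : orderOf y = 4) : ∃ g, g * x * g⁻¹ = y := by
  have key : ∀ z : Matrix.SpecialLinearGroup (Fin 3) F, orderOf z = 4 → ∃ P : Matrix.SpecialLinearGroup (Fin 3) F,
      z.1 * P.1 = P.1 * D0 1 := by
    intro z hz
    have h4 : (z : Matrix (Fin 3) (Fin 3) F) ^ 4 = 1 := (sl_pow_iff _ _).1 (by rw [← hz, pow_orderOf_eq_one])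
    have hne : (z : Matrix (Fin 3) (Fin 3) F) ^ 2 ≠ 1 := by
      intro h
      have h5 : z ^ 2 = 1 := (sl_pow_iff _ _).2 h
      have := orderOf_dvd_of_pow_eq_one h5
      rw [hz] at this
      omega
    obtain ⟨P, hP, hzP⟩ := exists_form h2 hsq z.2 h4 hne
    exact ⟨⟨P, hP⟩, hzP⟩
  obtain ⟨P, hP⟩ := key x hx
  obtain ⟨Q, hQ⟩ := key y hy
  let D : Matrix.SpecialLinearGroup (Fin 3) F := ⟨D0 1, det_D0 1⟩
  have h1 : x * P = P * D := Subtype.ext hP
  have h3 : y * Q = Q * D := Subtype.ext hQ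
  have h4 : x = P * D * P⁻¹ := by rw [← h1, mul_inv_cancel_right]
  have h5 : y = Q * D * Q⁻¹ := by rw [← h3, mul_inv_cancel_right]
  refine ⟨Q * P⁻¹, ?_⟩
  rw [h4, h5]
  group

end Four

/-! ### the groups -/

section Rows

theorem charP_three {F : Type*} [Field F] [Fintype F] {k : ℕ} (hF : Fintype.card F = 3 ^ k) (hk : k ≠ 0) : CharP F 3 := by
  obtain ⟨p, hp⟩ := CharP.exists F
  have hpp : p.Prime := (CharP.char_is_prime_or_zero F p).resolve_right (by
    rintro rfl
    exact absurd (CharP.charP_to_charZero F) (by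
      intro h
      exact not_finite F))
  have h1 : (3 : F) ^ k = 0 := by
    have h := FiniteField.cast_card_eq_zero F
    rw [hF] at h
    exact_mod_cast h
  have h3 : ((3 : ℕ) : F) = 0 := by
    exact_mod_cast (pow_eq_zero_iff hk).1 h1
  have h4 := (CharP.cast_eq_zero_iff F p 3).1 h3
  rw [← (Nat.prime_dvd_prime_iff_eq hpp Nat.prime_three).1 h4]
  exact hp

theorem charP_two {F : Type*} [Field F] [Fintype F] {k : ℕ} (hF : Fintype.card F = 2 ^ k) (hk : k ≠ 0) : CharP F 2 := by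
  obtain ⟨p, hp⟩ := CharP.exists F
  have hpp : p.Prime := (CharP.char_is_prime_or_zero F p).resolve_right (by
    rintro rfl
    exact absurd (CharP.charP_to_charZero F) (by
      intro h
      exact not_finite F))
  have h1 : (2 : F) ^ k = 0 := by
    have h := FiniteField.cast_card_eq_zero F
    rw [hF] at h
    exact_mod_cast h
  have h3 : ((2 : ℕ) : F) = 0 := by
    exact_mod_cast (pow_eq_zero_iff hk).1 h1
  have h4 := (CharP.cast_eq_zero_iff F p 2).1 h3
  rw [← (Nat.prime_dvd_prime_iff_eq hpp Nat.prime_two).1 h4]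
  exact hp

/-- `PSL₃(3)` has no element of order 9 -/
theorem psl33_nine {F : Type*} [Field F] [Fintype F] (hF : Fintype.card F = 3)
    (x : Matrix.ProjectiveSpecialLinearGroup (Fin 3) F) : orderOf x ≠ 9 := by
  intro h
  have : Fact (Nat.Prime 3) := ⟨Nat.prime_three⟩
  have := charP_three (k := 1) (by rw [hF, pow_one]) one_ne_zero
  have h1 : x ^ 3 ^ 2 = 1 := by
    rw [show (3 : ℕ) ^ 2 = 9 by norm_num, ← h, pow_orderOf_eq_one]
  have h2 := orderOf_dvd_of_pow_eq_one (psl_pow h1)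
  rw [h] at h2
  omega

/-- `PSU₃(3)` has no element of order 9 -/
theorem psu33_nine {F : Type*} [Field F] [Fintype F] (hF : Fintype.card F = 3 ^ 2)
    (x : Cfsg.PSU 3 F 3) : orderOf x ≠ 9 := by
  intro h
  have := charP_three hF two_ne_zero
  have h1 : x ^ 3 ^ 2 = 1 := by
    rw [show (3 : ℕ) ^ 2 = 9 by norm_num, ← h, pow_orderOf_eq_one]
  have h2 := orderOf_dvd_of_pow_eq_one (psu_pow hF h1)
  rw [h] at h2
  omega

/-- the 2-elements of `PSL₂(8)` -/
theorem psl28_pow {F : Type*} [Field F] [Fintype F] (hF : Fintype.card F = 8)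
    {x : Matrix.ProjectiveSpecialLinearGroup (Fin 2) F} {k : ℕ} (hx : x ^ 2 ^ k = 1) : x ^ 2 = 1 := by
  have : Fact (Nat.Prime 2) := ⟨Nat.prime_two⟩
  have := charP_two (k := 3) (by rw [hF]; norm_num) (by norm_num)
  exact psl_pow hx

/-- the elements of order 4 of `PSL₃(3)` are conjugate -/
theorem psl33_conj {F : Type*} [Field F] [Fintype F] (hF : Fintype.card F = 3)
    {x y : Matrix.ProjectiveSpecialLinearGroup (Fin 3) F} (hx : orderOf x = 4) (hy : orderOf y = 4) :
    ∃ g, g * x * g⁻¹ = y := by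
  have : Fact (Nat.Prime 3) := ⟨Nat.prime_three⟩
  have hch := charP_three (k := 1) (by rw [hF, pow_one]) one_ne_zero
  have h3 : (3 : F) = 0 := by exact_mod_cast CharP.cast_eq_zero F 3
  have h2 : (2 : F) ≠ 0 := by
    intro h
    apply one_ne_zero (α := F)
    linear_combination h3 - h
  have hcube : ∀ a : F, a ^ 3 = a := fun a => by
    rw [← hF]
    exact FiniteField.pow_card a
  have hsq : ∀ a : F, a ^ 2 ≠ -1 := by
    intro a ha
    have h5 := hcube a
    have h6 : a = 0 := by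
      have h7 : a ^ 3 = -a := by rw [pow_succ, ha]; ring
      have h8 : 2 * a = 0 := by linear_combination h7 - h5
      exact (mul_eq_zero.1 h8).resolve_left h2
    rw [h6] at ha
    apply one_ne_zero (α := F)
    linear_combination ha
  have ho : ∀ z : Matrix.ProjectiveSpecialLinearGroup (Fin 3) F, orderOf (slEquiv (p := 3) (K := F) z) = orderOf z := fun z =>
    orderOf_injective (slEquiv (p := 3) (K := F)).toMonoidHom (slEquiv (p := 3) (K := F)).injective z
  obtain ⟨g, hg⟩ := conj_four h2 hsq ((ho x).trans hx) ((ho y).trans hy)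
  refine ⟨(slEquiv (p := 3) (K := F)).symm g, (slEquiv (p := 3) (K := F)).injective ?_⟩
  rw [map_mul, map_mul, map_inv, MulEquiv.apply_symm_apply, hg]

end Rows

end Cfsg.Agent.H815.G23.Lin
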