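import Cfsg.Agent.H257.Cov.Tools
import Cfsg.Agent.H325.LocStruct
import Cfsg.Agent.H815.G23.Lin

/-!
# Subgroups of `G₂(3)` of order divisible by 13 or 7 (helper815)

`Dat T` : `|T| = |G₂(3)|`, the primes 13 and 7 are isolated, and divide the order of no 3-local subgroup.

* `case13` : `R < T`, `13 ∣ |R|`: `|R| ∣ 156`, `|R| = 1092` or `R` has a normal subgroup `N ≅ L₃(3)` of index at most 2
* `nine13` : then `R` has no element of order 9
* `case7` : `R < T`, `7 ∣ |R|`, and `R` has an element of order 9: `R` has no element of order 8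
-/

set_option autoImplicit false

namespace Cfsg.Agent.H815.G23

open Subgroup
open Cfsg Cfsg.Agent.OrdDiv Cfsg.Agent.H257.El Cfsg.Agent.H257.Cov Cfsg.Agent.H325.Loc

universe u

/-- the data used -/
structure Dat (T : Type u) [Group T] : Prop where
  card : Nat.card T = 4245696
  i13 : Isol T 13
  i7 : Isol T 7
  p13 : PIso 3 13 T
  p7 : PIso 3 7 T

/-- the factorization -/
def L0 : List (ℕ × ℕ) := [(2, 6), (3, 6), (7, 1), (13, 1)]

theorem valid_L0 : OrdDiv.valid L0 4245696 = true := by decide +kernel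

theorem surv13 : surv 4245696 L0 13 [] = [.psl 3 3, .psl 2 27, .psl 2 13] := by decide +kernel

theorem surv7 : surv 4245696 L0 7 [] = [.psl 3 2, .psl 2 8, .psl 2 27, .psl 2 7, .psl 2 13, .psu 3 3] := by
  decide +kernel

theorem ordN_vals : ordN (.psl 3 3) = 5616 ∧ ordN (.psl 2 27) = 9828 ∧ ordN (.psl 2 13) = 1092 ∧
    ordN (.psl 3 2) = 168 ∧ ordN (.psl 2 8) = 504 ∧ ordN (.psl 2 7) = 168 ∧ ordN (.psu 3 3) = 6048 := by
  decide +kernel

theorem pr13 : Nat.Prime 13 := by norm_num
theorem pr7 : Nat.Prime 7 := by norm_num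

/-- the primes dividing the order -/
theorem prime_cases {s n : ℕ} (hs : s.Prime) (hsn : s ∣ n) (hn : n ∣ 4245696) : s = 2 ∨ s = 3 ∨ s = 7 ∨ s = 13 := by
  have h : s ∣ 2 ^ 6 * 3 ^ 6 * 7 * 13 := by
    have e : 2 ^ 6 * 3 ^ 6 * 7 * 13 = 4245696 := by norm_num
    rw [e]
    exact hsn.trans hn
  rcases (hs.dvd_mul).1 h with h | h
  · rcases (hs.dvd_mul).1 h with h | h
    · rcases (hs.dvd_mul).1 h with h | h
      · left
        exact (Nat.prime_dvd_prime_iff_eq hs Nat.prime_two).1 (hs.dvd_of_dvd_pow h)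
      · right; left
        exact (Nat.prime_dvd_prime_iff_eq hs Nat.prime_three).1 (hs.dvd_of_dvd_pow h)
    · right; right; left
      exact (Nat.prime_dvd_prime_iff_eq hs pr7).1 h
  · right; right; right
    exact (Nat.prime_dvd_prime_iff_eq hs pr13).1 h

theorem eq_one_of_primes {n : ℕ} (hn : n ∣ 4245696) (h2 : ¬ 2 ∣ n) (h3 : ¬ 3 ∣ n) (h7 : ¬ 7 ∣ n) (h13 : ¬ 13 ∣ n) :
    n = 1 := by
  by_contra hne
  obtain ⟨s, hs, hsn⟩ := Nat.exists_prime_and_dvd hne
  rcases prime_cases hs hsn hn with rfl | rfl | rfl | rfl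
  · exact h2 hsn
  · exact h3 hsn
  · exact h7 hsn
  · exact h13 hsn

/-- 3 does not divide the order of the core -/
theorem core_three {R : Type*} [Group R] [Finite R] {r : ℕ} {O : Subgroup R} [O.Normal] {N : Subgroup (R ⧸ O)}
    (h : Top R r O N) (hp : PIso 3 r R) : ¬ 3 ∣ Nat.card O := by
  intro h3
  have hr' : Fact r.Prime := ⟨h.prime⟩
  have hs' : Fact (Nat.Prime 3) := ⟨Nat.prime_three⟩
  obtain ⟨S⟩ : Nonempty (Sylow 3 O) := inferInstance
  obtain ⟨y, hy, hyS⟩ := exists_normalizer h.dvdR O h.core S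
  refine hp ((S : Subgroup O).map O.subtype) (S.isPGroup'.map _) ?_ ?_
  · rw [Ne, map_eq_bot_iff_of_injective _ O.subtype_injective]
    intro hb
    have h4 := S.card_eq_multiplicity
    rw [hb, Subgroup.card_bot] at h4
    have h5 : 1 ≤ (Nat.card O).factorization 3 :=
      (Nat.prime_three.pow_dvd_iff_le_factorization (k := 1) Nat.card_pos.ne').1 (by rwa [pow_one])
    have h6 := Nat.one_lt_pow (n := (Nat.card O).factorization 3) (by omega) (show 1 < 3 by norm_num)
    omega
  · rw [← hy]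
    exact Subgroup.orderOf_dvd_natCard _ hyS

theorem pow_le_of_dvd {s b r : ℕ} (hok : okPow L0 r s = true) (hs : s.Prime) (hb : 1 ≤ b) {n : ℕ} (hn : n ∣ 4245696)
    (hd : s ^ b ∣ n) : s ^ b % r ≠ 1 := okPow_spec valid_L0 hok hs hb (hd.trans hn)

section

variable {T : Type u} [Group T] [Finite T] (D : Dat T) (tab : OrderTable.{u}) (known : Known.{u})

include D

theorem Dat.dvd (R : Subgroup T) : Nat.card R ∣ 4245696 := by
  rw [← D.card]
  exact Subgroup.card_subgroup_dvd_card R

theorem Dat.no {r s : ℕ} (hi : Isol T r) (hs : s.Prime) (hrs : r ≠ s) {R : Subgroup T} (z : R) : orderOf z ≠ r * s :=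
  (hi.sub R) s hs hrs z

include tab known

/-- the core is trivial for 13 -/
theorem Dat.exists_top13 {R : Subgroup T} (hR : R ≠ ⊤) (h13 : 13 ∣ Nat.card R) :
    SitP T 4245696 L0 13 R ∧ ∃ (O : Subgroup R) (_ : O.Normal) (N : Subgroup (R ⧸ O)), Top R 13 O N ∧ Nat.card O = 1 := by
  have S : SitP T 4245696 L0 13 R := sitP_of tab known D.card valid_L0 pr13 (by decide) hR h13
  obtain ⟨O, hO, N, h⟩ := S.exists_top
  have hd : Nat.card O ∣ 4245696 := (Subgroup.card_subgroup_dvd_card O).trans (D.dvd R)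
  refine ⟨S, O, hO, N, h, eq_one_of_primes hd ?_ (core_three h (D.p13.sub R)) ?_ h.core⟩
  · exact h.not_dvd_core Nat.prime_two (by norm_num) (fun z => D.no D.i13 Nat.prime_two (by norm_num) z)
      fun b hb hdb => pow_le_of_dvd (r := 13) (by decide +kernel) Nat.prime_two hb (D.dvd R) hdb
  · exact h.not_dvd_core pr7 (by norm_num) (fun z => D.no D.i13 pr7 (by norm_num) z)
      fun b hb hdb => pow_le_of_dvd (r := 13) (by decide +kernel) pr7 hb (D.dvd R) hdb

/-- **subgroups of order divisible by 13** -/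
theorem Dat.case13 {R : Subgroup T} (hR : R ≠ ⊤) (h13 : 13 ∣ Nat.card R) :
    Nat.card R ∣ 156 ∨ Nat.card R = 1092 ∨
      ∃ N : Subgroup R, N.Normal ∧ N.index ∣ 2 ∧ OrdDiv.Real (.psl 3 3) N ∧ Nat.card N = 5616 := by
  obtain ⟨S, O, hO, N, h, hO1⟩ := D.exists_top13 tab known hR h13
  have hRO : Nat.card (R ⧸ O) = Nat.card R := by
    have h1 := card_quot_mul O
    rwa [hO1, mul_one] at h1
  have hRN : Nat.card N * N.index = Nat.card R := by rw [← hRO, Subgroup.card_mul_index N]
  have hT2 : ¬ 13 ^ 2 ∣ Nat.card T := by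
    rw [D.card]
    decide
  obtain ⟨i1, i2⟩ := index_dvd_E D.i13 hT2 (by rw [D.card]; decide) h
  by_cases hc : ∀ a b : N, a * b = b * a
  · left
    rw [← hRN, h.card_of_comm hc]
    exact Nat.mul_dvd_mul_left 13 (h.index_dvd_of_comm hc)
  right
  have hE : E (Nat.card T) 13 = 6 := by rw [D.card]; decide
  have i3 := i2 hc
  rw [hE] at i3
  obtain ⟨g, hg, hreal, hgc⟩ := S.exists_surv h hc [] (by simp)
  rw [surv13] at hg
  obtain ⟨v1, v2, v3, -⟩ := ordN_vals
  simp only [List.mem_cons, List.not_mem_nil, or_false] at hg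
  rcases hg with rfl | rfl | rfl
  · -- `L₃(3)`
    right
    rw [v1] at hgc
    rw [hgc, show E 5616 13 = 3 by decide] at i3
    have hidx : N.index ∣ 2 := by
      have e : 6 = 3 * 2 := by norm_num
      rw [e] at i3
      exact Nat.dvd_of_mul_dvd_mul_left (by norm_num) i3
    have hObot : O = ⊥ := Subgroup.card_eq_one.1 hO1
    let e : R ⧸ O ≃* R := (QuotientGroup.quotientMulEquivOfEq hObot).trans QuotientGroup.quotientBot
    have hNn := h.normal
    have e2 : N ≃* N.map e.toMonoidHom := N.equivMapOfInjective e.toMonoidHom e.injective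
    refine ⟨N.map e.toMonoidHom, hNn.map e.toMonoidHom e.surjective, ?_, ?_, ?_⟩
    · have h5 : (N.map e.toMonoidHom).index = N.index := Subgroup.index_map_equiv N e
      rw [h5]
      exact hidx
    · obtain ⟨F', i1', i2', hF', ⟨e3⟩⟩ := hreal
      exact ⟨F', i1', i2', hF', ⟨e2.symm.trans e3⟩⟩
    · rw [← Nat.card_congr e2.toEquiv, hgc]
  · -- `L₂(27)`
    exfalso
    rw [v2] at hgc
    rw [hgc, show E 9828 13 = 2 by decide] at i3
    have hidx : N.index ∣ 3 := by
      have e : 6 = 2 * 3 := by norm_num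
      rw [e] at i3
      exact Nat.dvd_of_mul_dvd_mul_left (by norm_num) i3
    have h7R : 7 ∣ Nat.card R := by
      rw [← hRN, hgc]
      exact Dvd.dvd.mul_right (by norm_num) _
    have h5 := E_dvd pr7 D.i7 (by rw [D.card]; decide) (by rw [D.card]; decide) R h7R
    rw [D.card, show E 4245696 7 = 6 by decide, ← hRN, hgc] at h5
    rcases (Nat.dvd_prime Nat.prime_three).1 hidx with h6 | h6
    · rw [h6] at h5
      revert h5
      decide
    · rw [h6] at h5
      revert h5
      decide
  · -- `L₂(13)`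
    left
    rw [v3] at hgc
    rw [hgc, show E 1092 13 = 6 by decide] at i3
    have hidx : N.index = 1 := by
      have h5 := Nat.le_of_dvd (by norm_num) i3
      have h6 : N.index ≠ 0 := N.index_ne_zero_of_finite
      omega
    rw [← hRN, hgc, hidx]

/-- **no element of order 9** -/
theorem Dat.nine13 {R : Subgroup T} (hR : R ≠ ⊤) (h13 : 13 ∣ Nat.card R) (z : R) : orderOf z ≠ 9 := by
  intro hz
  have hd : 9 ∣ Nat.card R := by
    rw [← hz]
    exact _root_.orderOf_dvd_natCard z
  rcases D.case13 tab known hR h13 with h | h | ⟨N, hN, hidx, hreal, hc⟩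
  · have := hd.trans h
    omega
  · rw [h] at hd
    omega
  · have hzN : z ∈ N := mem_of_coprime_index N (by
      rw [hz]
      exact Nat.Coprime.coprime_dvd_right hidx (by norm_num))
    obtain ⟨F', i1', i2', hF', ⟨e3⟩⟩ := hreal
    refine Lin.psl33_nine hF' (e3 ⟨z, hzN⟩) ?_
    have h1 : orderOf (e3 ⟨z, hzN⟩) = orderOf (⟨z, hzN⟩ : N) := orderOf_injective e3.toMonoidHom e3.injective _
    rw [h1, Subgroup.orderOf_mk, hz]

/-- **subgroups of order divisible by 7 with an element of order 9** -/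
theorem Dat.case7 {R : Subgroup T} (hR : R ≠ ⊤) (h7 : 7 ∣ Nat.card R) {z : R} (hz : orderOf z = 9) (y : R) :
    orderOf y ≠ 8 := by
  intro hy
  have h13 : ¬ 13 ∣ Nat.card R := fun h => D.nine13 tab known hR h z hz
  have S : SitP T 4245696 L0 7 R := sitP_of tab known D.card valid_L0 pr7 (by decide) hR h7
  obtain ⟨O, hO, N, h⟩ := S.exists_top
  have hNn := h.normal
  have hO3 : ¬ 3 ∣ Nat.card O := core_three h (D.p7.sub R)
  have hz' : orderOf (QuotientGroup.mk' O z) = 9 := by
    rw [orderOf_mk_quot O fun s hs hsd => ?_, hz]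
    rw [hz] at hsd
    have : s = 3 := (Nat.prime_dvd_prime_iff_eq hs Nat.prime_three).1 (hs.dvd_of_dvd_pow (by
      show s ∣ 3 ^ 2
      exact hsd))
    rw [this]
    exact hO3
  have h9 : 9 ∣ Nat.card (R ⧸ O) := by
    rw [← hz']
    exact _root_.orderOf_dvd_natCard _
  have hNi : Nat.card N * N.index = Nat.card (R ⧸ O) := Subgroup.card_mul_index N
  have hT2 : ¬ 7 ^ 2 ∣ Nat.card T := by
    rw [D.card]
    decide
  obtain ⟨i1, i2⟩ := index_dvd_E D.i7 hT2 (by rw [D.card]; decide) h
  by_cases hc : ∀ a b : N, a * b = b * a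
  · have h10 := h.index_dvd_of_comm hc
    rw [← hNi, h.card_of_comm hc] at h9
    have h11 := h9.trans (Nat.mul_dvd_mul_left 7 h10)
    omega
  have hE : E (Nat.card T) 7 = 6 := by rw [D.card]; decide
  have i3 := i2 hc
  rw [hE] at i3
  obtain ⟨g, hg, hreal, hgc⟩ := S.exists_surv h hc [] (by simp)
  rw [surv7] at hg
  have hNR : Nat.card N ∣ Nat.card R := SitP.card_N_dvd
  obtain ⟨-, v2, v3, v4, v5, v6, v7⟩ := ordN_vals
  -- groups of order 168
  have k168 : Nat.card N = 168 → False := by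
    intro hgc
    rw [hgc, show E 168 7 = 3 by decide] at i3
    have hidx : N.index ∣ 2 := by
      have e : 6 = 3 * 2 := by norm_num
      rw [e] at i3
      exact Nat.dvd_of_mul_dvd_mul_left (by norm_num) i3
    rw [← hNi, hgc] at h9
    have h11 := h9.trans (Nat.mul_dvd_mul_left 168 hidx)
    omega
  simp only [List.mem_cons, List.not_mem_nil, or_false] at hg
  rcases hg with rfl | rfl | rfl | rfl | rfl | rfl
  · exact k168 (hgc.trans v4)
  · -- `L₂(8)`
    rw [v5] at hgc
    rw [hgc, show E 504 7 = 2 by decide] at i3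
    have hidx : N.index ∣ 3 := by
      have e : 6 = 2 * 3 := by norm_num
      rw [e] at i3
      exact Nat.dvd_of_mul_dvd_mul_left (by norm_num) i3
    set y' := QuotientGroup.mk' O y with hy'
    have hy8 : y' ^ 2 ^ 3 = 1 := by
      rw [hy', ← map_pow, show (2 : ℕ) ^ 3 = 8 by norm_num, ← hy, pow_orderOf_eq_one, map_one]
    have hyN : y' ∈ N := mem_of_coprime_index N (by
      refine Nat.Coprime.coprime_dvd_left (orderOf_dvd_of_pow_eq_one hy8) ?_
      exact Nat.Coprime.coprime_dvd_right hidx (by norm_num))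
    obtain ⟨F', j1, j2, hF', ⟨e3⟩⟩ := hreal
    have h12 : (⟨y', hyN⟩ : N) ^ 2 = 1 := by
      apply e3.injective
      rw [map_pow, map_one]
      refine Lin.psl28_pow hF' (k := 3) ?_
      rw [← map_pow, ← map_one e3]
      congr 1
      apply Subtype.ext
      rw [Subgroup.coe_pow]
      exact hy8
    have h13' : y' ^ 2 = 1 := congrArg Subtype.val h12
    have hwO : y ^ 2 ∈ O := by
      rw [← QuotientGroup.eq_one_iff (N := O)]
      change QuotientGroup.mk' O (y ^ 2) = 1
      rw [map_pow]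
      exact h13'
    have hw4 : orderOf (y ^ 2) = 4 := by
      rw [orderOf_pow_of_dvd (by norm_num) (by rw [hy]; norm_num), hy]
    -- the order of `O`
    have hOd : Nat.card O ∣ 8 := by
      have hdR := D.dvd R
      have h14 := card_quot_mul O
      rw [← hNi, hgc] at h14
      have h15 : 504 * Nat.card O ∣ 4245696 := by
        refine dvd_trans ?_ hdR
        rw [← h14]
        exact ⟨N.index, by ring⟩
      have h16 : Nat.card O ∣ 8424 := by
        have e : 4245696 = 504 * 8424 := by norm_num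
        rw [e] at h15
        exact Nat.dvd_of_mul_dvd_mul_left (by norm_num) h15
      have h17 : Nat.Coprime (Nat.card O) 1053 := by
        rw [Nat.coprime_iff_gcd_eq_one]
        by_contra hne
        obtain ⟨s, hs, hsd⟩ := Nat.exists_prime_and_dvd hne
        have hsO := hsd.trans (Nat.gcd_dvd_left _ _)
        have hs2 : s ∣ 3 ^ 4 * 13 := by
          have e : 3 ^ 4 * 13 = 1053 := by norm_num
          rw [e]
          exact hsd.trans (Nat.gcd_dvd_right _ _)
        rcases (hs.dvd_mul).1 hs2 with h18 | h18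
        · have := (Nat.prime_dvd_prime_iff_eq hs Nat.prime_three).1 (hs.dvd_of_dvd_pow h18)
          rw [this] at hsO
          exact hO3 hsO
        · have := (Nat.prime_dvd_prime_iff_eq hs pr13).1 h18
          rw [this] at hsO
          exact h13 (hsO.trans (Subgroup.card_subgroup_dvd_card O))
      have e : 8424 = 8 * 1053 := by norm_num
      rw [e] at h16
      exact h17.dvd_of_dvd_mul_right h16
    have hO8 : Nat.card O ≤ 8 := Nat.le_of_dvd (by norm_num) hOd
    -- an element of order 7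
    have hf7 : Fact (Nat.Prime 7) := ⟨pr7⟩
    obtain ⟨x, hx⟩ := exists_prime_orderOf_dvd_card' (G := R) 7 h7
    have hnc : x * y ^ 2 ≠ y ^ 2 * x := by
      intro hcm
      have hy4 : orderOf (y ^ 4) = 2 := by
        rw [orderOf_pow_of_dvd (by norm_num) (by rw [hy]; norm_num), hy]
      have hcm' : x * y ^ 4 = y ^ 4 * x := by
        have h20 : Commute x (y ^ 2) := hcm
        have h21 := h20.pow_right 2
        rw [← pow_mul] at h21
        exact h21
      exact D.no D.i7 Nat.prime_two (by norm_num) _ (orderOf_mul_of_comm pr7 Nat.prime_two (by norm_num) hx hy4 hcm')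
    have hinj : ∀ i j : ℕ, i < 7 → j < 7 → i ≤ j → x ^ i * y ^ 2 * (x ^ i)⁻¹ = x ^ j * y ^ 2 * (x ^ j)⁻¹ → i = j := by
      intro i j hi hj hij he
      by_contra hne
      have hk : ∃ k, j = i + k ∧ 0 < k ∧ k < 7 := ⟨j - i, by omega, by omega, by omega⟩
      obtain ⟨k, rfl, hk0, hk7⟩ := hk
      have h20 : x ^ k * y ^ 2 = y ^ 2 * x ^ k := by
        rw [pow_add] at he
        have h21 : y ^ 2 = x ^ k * y ^ 2 * (x ^ k)⁻¹ := by
          calc y ^ 2 = (x ^ i)⁻¹ * (x ^ i * y ^ 2 * (x ^ i)⁻¹) * x ^ i := by group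
            _ = (x ^ i)⁻¹ * (x ^ i * x ^ k * y ^ 2 * (x ^ i * x ^ k)⁻¹) * x ^ i := by rw [he]
            _ = x ^ k * y ^ 2 * (x ^ k)⁻¹ := by group
        calc x ^ k * y ^ 2 = (x ^ k * y ^ 2 * (x ^ k)⁻¹) * x ^ k := by group
          _ = y ^ 2 * x ^ k := by rw [← h21]
      have hcop : Nat.Coprime 7 k := (Nat.Prime.coprime_iff_not_dvd pr7).2 fun hd => by
        have := Nat.le_of_dvd hk0 hd
        omega
      obtain ⟨m, hm⟩ := exists_pow_eq_self_of_coprime (n := k) (x := x) (by rw [hx]; exact hcop.symm)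
      apply hnc
      have h22 : Commute (x ^ k) (y ^ 2) := h20
      have h23 := h22.pow_left m
      rw [hm] at h23
      exact h23
    let f : Fin 7 → O := fun i => ⟨x ^ i.val * y ^ 2 * (x ^ i.val)⁻¹, hO.conj_mem _ hwO _⟩
    have hfinj : Function.Injective f := by
      intro i j he
      have he' : x ^ i.val * y ^ 2 * (x ^ i.val)⁻¹ = x ^ j.val * y ^ 2 * (x ^ j.val)⁻¹ := congrArg Subtype.val he
      rcases le_total i.val j.val with h20 | h20
      · exact Fin.ext (hinj _ _ i.2 j.2 h20 he')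
      · exact Fin.ext (hinj _ _ j.2 i.2 h20 he'.symm).symm
    have hfo : ∀ i, orderOf (f i) = 4 := by
      intro i
      rw [← Subgroup.orderOf_coe]
      change orderOf (x ^ i.val * y ^ 2 * (x ^ i.val)⁻¹) = 4
      rw [← hw4]
      exact orderOf_injective (MulAut.conj (x ^ i.val)).toMonoidHom (MulAut.conj (x ^ i.val)).injective (y ^ 2)
    let w : O := ⟨y ^ 2, hwO⟩
    have hw : orderOf w = 4 := by rw [← hw4]; exact (Subgroup.orderOf_mk _ _)
    have hw2 : orderOf (w ^ 2) = 2 := by
      rw [orderOf_pow_of_dvd (by norm_num) (by rw [hw]; norm_num), hw]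
    classical
    have hfin := Fintype.ofFinite O
    let s1 : Finset O := Finset.univ.image f
    have hs1 : s1.card = 7 := by
      rw [Finset.card_image_of_injective _ hfinj, Finset.card_univ, Fintype.card_fin]
    have hm1 : (1 : O) ∉ s1 := by
      intro hm
      obtain ⟨i, -, hi⟩ := Finset.mem_image.1 hm
      have := hfo i
      rw [hi, orderOf_one] at this
      omega
    have hm2 : w ^ 2 ∉ insert (1 : O) s1 := by
      intro hm
      rcases Finset.mem_insert.1 hm with hm | hm
      · rw [hm, orderOf_one] at hw2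
        omega
      · obtain ⟨i, -, hi⟩ := Finset.mem_image.1 hm
        have := hfo i
        rw [hi, hw2] at this
        omega
    have h30 := Finset.card_le_univ (insert (w ^ 2) (insert (1 : O) s1))
    rw [Finset.card_insert_of_notMem hm2, Finset.card_insert_of_notMem hm1, hs1, ← Nat.card_eq_fintype_card] at h30
    omega
  · rw [v2] at hgc
    exact h13 (dvd_trans (by rw [hgc]; norm_num) hNR)
  · exact k168 (hgc.trans v6)
  · rw [v3] at hgc
    exact h13 (dvd_trans (by rw [hgc]; norm_num) hNR)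
  · -- `U₃(3)`
    rw [v7] at hgc
    rw [hgc, show E 6048 7 = 3 by decide] at i3
    have hidx : N.index ∣ 2 := by
      have e : 6 = 3 * 2 := by norm_num
      rw [e] at i3
      exact Nat.dvd_of_mul_dvd_mul_left (by norm_num) i3
    have hzN : QuotientGroup.mk' O z ∈ N := mem_of_coprime_index N (by
      rw [hz']
      exact Nat.Coprime.coprime_dvd_right hidx (by norm_num))
    obtain ⟨F', j1, j2, hF', ⟨e3⟩⟩ := hreal
    refine Lin.psu33_nine hF' (e3 ⟨_, hzN⟩) ?_
    have h1 : orderOf (e3 ⟨_, hzN⟩) = orderOf (⟨_, hzN⟩ : N) := orderOf_injective e3.toMonoidHom e3.injective _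
    rw [h1, Subgroup.orderOf_mk, hz']

end

end Cfsg.Agent.H815.G23
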