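import Cfsg.Agent.H815.G23.Elts
import Cfsg.Agent.H815.G23.Tops
import Cfsg.Agent.H815.G23.Par
import Cfsg.Agent.H815.G23.Solv
import Cfsg.Agent.H815.G23.Syl
import Cfsg.Agent.ChevalleyStructure.FieldIso

/-!
# `G₂(3)` is not the union of the conjugates of two proper subgroups: the core (helper815)

* `noTwo_of_dat` : `Dat ↥(chevG2.group (ZMod 3))` implies `NoTwo`
-/

set_option autoImplicit false

namespace Cfsg.Agent.H815.G23

open Cfsg Cfsg.Lie Cfsg.Agent.OrdDiv Cfsg.Agent.H257.El Cfsg.Agent.H257.Cov Cfsg.Agent.H278.Cov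
open Cfsg.Agent.GTwoThree.Model (Gp)

/-- two squares of elements of order 8 in a subgroup of order divisible by 13 are conjugate -/
theorem Dat.conj13 {T : Type} [Group T] [Finite T] (D : Dat T) (tab : OrderTable.{0}) (known : Known.{0})
    {R : Subgroup T} (hR : R ≠ ⊤) (h13 : 13 ∣ Nat.card R) {a b : R} (ha : orderOf a = 8) (hb : orderOf b = 8) :
    ∃ g : T, g * (a : T) ^ 2 * g⁻¹ = (b : T) ^ 2 := by
  have hd : 8 ∣ Nat.card R := by
    rw [← ha]
    exact _root_.orderOf_dvd_natCard a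
  rcases D.case13 tab known hR h13 with h | h | ⟨N, hN, hidx, hreal, hc⟩
  · have := hd.trans h
    omega
  · rw [h] at hd
    omega
  have hsq : ∀ x : R, x ^ 2 ∈ N := by
    intro x
    have h1 := Subgroup.pow_index_mem N x
    obtain ⟨c, hc⟩ := hidx
    have h2 := Subgroup.pow_mem _ h1 c
    rw [← pow_mul, ← hc] at h2
    exact h2
  obtain ⟨F', i1', i2', hF', ⟨e⟩⟩ := hreal
  have ho : ∀ x : R, orderOf x = 8 → orderOf (e ⟨x ^ 2, hsq x⟩) = 4 := by
    intro x hx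
    have h1 : orderOf (e ⟨x ^ 2, hsq x⟩) = orderOf (⟨x ^ 2, hsq x⟩ : N) :=
      orderOf_injective e.toMonoidHom e.injective _
    rw [h1, Subgroup.orderOf_mk, orderOf_pow_of_dvd (by norm_num) (by rw [hx]; norm_num), hx]
  obtain ⟨g, hg⟩ := Lin.psl33_conj hF' (ho a ha) (ho b hb)
  refine ⟨((e.symm g : N) : R), ?_⟩
  have h2 : e (e.symm g * ⟨a ^ 2, hsq a⟩ * (e.symm g)⁻¹) = e ⟨b ^ 2, hsq b⟩ := by
    rw [map_mul, map_mul, map_inv, MulEquiv.apply_symm_apply]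
    exact hg
  have h3 := e.injective h2
  exact congrArg (fun w : N => ((w : R) : T)) h3

/-- a subgroup normalises its core -/
theorem le_normalizer_core {G : Type*} [Group G] (K : Subgroup G) :
    K ≤ Subgroup.normalizer (((pCore 3 K).map K.subtype : Subgroup G) : Set G) := by
  intro k hk
  have hn : (pCore 3 K).Normal := Lib.Cores.pCore_normal 3
  rw [Subgroup.mem_normalizer_iff]
  intro x
  constructor
  · rintro ⟨q, hq, rfl⟩
    exact ⟨⟨k, hk⟩ * q * ⟨k, hk⟩⁻¹, hn.conj_mem q hq ⟨k, hk⟩, rfl⟩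
  · rintro ⟨q, hq, hqx⟩
    refine ⟨⟨k, hk⟩⁻¹ * q * ⟨k, hk⟩, ?_, ?_⟩
    · have := hn.conj_mem q hq ⟨k, hk⟩⁻¹
      rwa [inv_inv] at this
    · change k⁻¹ * (q : G) * k = x
      have h4 : (q : G) = k * x * k⁻¹ := hqx
      rw [h4]
      group

/-- a `{2, 3}`-subgroup does not contain conjugates of `y1`, `y2` and `y9` -/
theorem false_two_three (hcard : Nat.card ↥Gp = 4245696) {K : Subgroup ↥Gp} (h7 : ¬ 7 ∣ Nat.card K)
    (h13 : ¬ 13 ∣ Nat.card K) {g1 g2 g9 : ↥Gp} (h1 : g1 * y1 * g1⁻¹ ∈ K) (h2 : g2 * y2 * g2⁻¹ ∈ K)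
    (h9 : g9 * y9 * g9⁻¹ ∈ K) : False := by
  have ho : ∀ g x : ↥Gp, orderOf (g * x * g⁻¹) = orderOf x := fun g x =>
    orderOf_injective (MulAut.conj g).toMonoidHom (MulAut.conj g).injective x
  have hK : Nat.card K ∣ 2 ^ 6 * 3 ^ 6 := by
    have hd : Nat.card K ∣ 4245696 := by
      rw [← hcard]
      exact Subgroup.card_subgroup_dvd_card K
    have e : 4245696 = 2 ^ 6 * 3 ^ 6 * (7 * 13) := by norm_num
    rw [e] at hd
    refine Nat.Coprime.dvd_of_dvd_mul_right (Nat.Coprime.mul_right ?_ ?_) hd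
    · exact ((Nat.Prime.coprime_iff_not_dvd pr7).2 h7).symm
    · exact ((Nat.Prime.coprime_iff_not_dvd pr13).2 h13).symm
  have o1 : orderOf (⟨_, h1⟩ : K) = 8 := by rw [Subgroup.orderOf_mk, ho, orderOf_y1]
  have o2 : orderOf (⟨_, h2⟩ : K) = 8 := by rw [Subgroup.orderOf_mk, ho, orderOf_y2]
  have o9 : orderOf (⟨_, h9⟩ : K) = 9 := by rw [Subgroup.orderOf_mk, ho, orderOf_y9]
  have h32 : 32 ∣ Nat.card K := by
    by_contra hn
    obtain ⟨g, hg⟩ := conj_sq hn o1 o2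
    rcases hg with hg | hg
    · have h3 : (g : ↥Gp) * (g1 * y1 * g1⁻¹) ^ 2 * (g : ↥Gp)⁻¹ = (g2 * y2 * g2⁻¹) ^ 2 := congrArg Subtype.val hg
      rw [conj_pow, conj_pow] at h3
      apply not_conj (g2⁻¹ * g * g1)
      calc g2⁻¹ * g * g1 * y1 ^ 2 * (g2⁻¹ * g * g1)⁻¹ = g2⁻¹ * (g * (g1 * y1 ^ 2 * g1⁻¹) * (g : ↥Gp)⁻¹) * g2 := by group
        _ = g2⁻¹ * (g2 * y2 ^ 2 * g2⁻¹) * g2 := by rw [h3]
        _ = y2 ^ 2 := by group
    · have h3 : (g : ↥Gp) * (g1 * y1 * g1⁻¹) ^ 6 * (g : ↥Gp)⁻¹ = (g2 * y2 * g2⁻¹) ^ 2 := congrArg Subtype.val hg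
      rw [conj_pow, conj_pow] at h3
      apply not_conj' (g2⁻¹ * g * g1)
      calc g2⁻¹ * g * g1 * y1 ^ 6 * (g2⁻¹ * g * g1)⁻¹ = g2⁻¹ * (g * (g1 * y1 ^ 6 * g1⁻¹) * (g : ↥Gp)⁻¹) * g2 := by group
        _ = g2⁻¹ * (g2 * y2 ^ 2 * g2⁻¹) * g2 := by rw [h3]
        _ = y2 ^ 2 := by group
  by_cases hcore : pCore 3 K = ⊥
  · exact solv_false hK hcore o9 o1
  · have hQ : IsPGroup 3 ((pCore 3 K).map K.subtype) := (Lib.Cores.pCore_isPGroup 3).map _
    have hQ1 : (pCore 3 K).map K.subtype ≠ ⊥ := by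
      rw [Ne, Subgroup.map_eq_bot_iff_of_injective _ K.subtype_injective]
      exact hcore
    exact Par.not_dvd_of_core (F := ZMod 3) (ZMod.card 3) hQ hQ1 (h32.trans (Subgroup.card_dvd_of_le
      (le_normalizer_core K)))

/-- **the core of the proof** -/
theorem noTwo_of_dat (D : Dat ↥Gp) (tab : OrderTable.{0}) (known : Known.{0}) : NoTwo ↥Gp := by
  have hfin : Finite ↥Gp := inferInstance
  have ho : ∀ g x : ↥Gp, orderOf (g * x * g⁻¹) = orderOf x := fun g x =>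
    orderOf_injective (MulAut.conj g).toMonoidHom (MulAut.conj g).injective x
  have hav : ∀ (r : ℕ) (x : ↥Gp) (H : Subgroup ↥Gp), orderOf x = r → ¬ r ∣ Nat.card H → Av x H := by
    intro r x H hx hd
    exact av_of_card (by rw [hx]; exact hd)
  have key : ∀ H K : Subgroup ↥Gp, H ≠ ⊤ → K ≠ ⊤ → 13 ∣ Nat.card H → ∃ x : ↥Gp, Av x H ∧ Av x K := by
    intro H K hH hK h13
    by_contra hcon
    push Not at hcon
    have h9H : Av y9 H := by
      intro g hg
      exact D.nine13 tab known hH h13 ⟨_, hg⟩ (by rw [Subgroup.orderOf_mk, ho, orderOf_y9])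
    obtain ⟨g9, h9⟩ := not_av (hcon _ h9H)
    have o9 : orderOf (⟨_, h9⟩ : K) = 9 := by rw [Subgroup.orderOf_mk, ho, orderOf_y9]
    have h13K : ¬ 13 ∣ Nat.card K := fun h => D.nine13 tab known hK h _ o9
    by_cases h7K : 7 ∣ Nat.card K
    · have hK8 : ∀ x : ↥Gp, orderOf x = 8 → Av x K := by
        intro x hx g hg
        exact D.case7 tab known hK h7K o9 ⟨_, hg⟩ (by rw [Subgroup.orderOf_mk, ho, hx])
      have hH8 : ∀ x : ↥Gp, orderOf x = 8 → ∃ g, g * x * g⁻¹ ∈ H := by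
        intro x hx
        apply not_av
        intro h
        exact hcon x h (hK8 x hx)
      obtain ⟨g1, h1⟩ := hH8 y1 orderOf_y1
      obtain ⟨g2, h2⟩ := hH8 y2 orderOf_y2
      have o1 : orderOf (⟨_, h1⟩ : H) = 8 := by rw [Subgroup.orderOf_mk, ho, orderOf_y1]
      have o2 : orderOf (⟨_, h2⟩ : H) = 8 := by rw [Subgroup.orderOf_mk, ho, orderOf_y2]
      obtain ⟨g, h3⟩ := D.conj13 tab known hH h13 o1 o2
      change g * (g1 * y1 * g1⁻¹) ^ 2 * g⁻¹ = (g2 * y2 * g2⁻¹) ^ 2 at h3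
      rw [conj_pow, conj_pow] at h3
      apply not_conj (g2⁻¹ * g * g1)
      calc g2⁻¹ * g * g1 * y1 ^ 2 * (g2⁻¹ * g * g1)⁻¹ = g2⁻¹ * (g * (g1 * y1 ^ 2 * g1⁻¹) * (g : ↥Gp)⁻¹) * g2 := by group
        _ = g2⁻¹ * (g2 * y2 ^ 2 * g2⁻¹) * g2 := by rw [h3]
        _ = y2 ^ 2 := by group
    · -- an element of order 7
      obtain ⟨x7, hx7⟩ := exists_of_prime_dvd (T := ↥Gp) pr7 (by rw [D.card]; norm_num)
      have h7H : 7 ∣ Nat.card H := by
        by_contra h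
        exact hcon x7 (hav 7 x7 H hx7 h) (hav 7 x7 K hx7 h7K)
      have hc : Nat.card H = 1092 := by
        rcases D.case13 tab known hH h13 with h | h | ⟨N, hN, hidx, hreal, hc⟩
        · have := h7H.trans h
          omega
        · exact h
        · have h3 := Subgroup.card_mul_index N
          rw [← h3, hc] at h7H
          have := h7H.trans (Nat.mul_dvd_mul_left 5616 hidx)
          omega
      have h8H : ∀ x : ↥Gp, orderOf x = 8 → Av x H := by
        intro x hx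
        refine hav 8 x H hx ?_
        rw [hc]
        norm_num
      obtain ⟨g1, h1⟩ := not_av (hcon _ (h8H y1 orderOf_y1))
      obtain ⟨g2, h2⟩ := not_av (hcon _ (h8H y2 orderOf_y2))
      exact false_two_three D.card h7K h13K h1 h2 h9
  intro H K hH hK
  obtain ⟨x13, hx13⟩ := exists_of_prime_dvd (T := ↥Gp) pr13 (by rw [D.card]; norm_num)
  by_cases h13H : 13 ∣ Nat.card H
  · exact key H K hH hK h13H
  by_cases h13K : 13 ∣ Nat.card K
  · obtain ⟨x, hx1, hx2⟩ := key K H hK hH h13K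
    exact ⟨x, hx2, hx1⟩
  exact ⟨x13, hav 13 x13 H hx13 h13H, hav 13 x13 K hx13 h13K⟩

end Cfsg.Agent.H815.G23
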