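import Cfsg.Agent.GTwoThree.Model

/-!
# `G₂(3)`: a class function from the ideal of the short roots, elements of order 8 and 9 (helper815)

* `chi` : the trace on the seven-dimensional submodule (short roots) of the adjoint module
* `chi_conj` : it is a class function
* `y1`, `y2` : elements of order 8 with `chi (y1 ^ 2) = 0`, `chi (y2 ^ 2) = 2`; `y9` : an element of order 9
-/

set_option autoImplicit false
set_option Elab.async false
set_option maxRecDepth 100000

namespace Cfsg.Agent.H815.G23

open Cfsg.Lie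
open Cfsg.Agent.Lib.PackMat
open Cfsg.Agent.GTwoThree.ModelData
open Cfsg.Agent.GTwoThree.Model

/-- the indices of the ideal of the short roots -/
def sh : I14 → Bool
  | .inl i => i.val == 0
  | .inr u => u.val == 2 || u.val == 3 || u.val == 4 || u.val == 7 || u.val == 8 || u.val == 9

/-- matrices which leave the coordinate subspace invariant -/
def Blk (M : Matrix I14 I14 (ZMod 3)) : Prop := ∀ i j, sh i = false → sh j = true → ent M i j = 0

instance (M : Matrix I14 I14 (ZMod 3)) : Decidable (Blk M) := by unfold Blk; infer_instance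

theorem blk_x : ∀ (r : Fin 12) (t : Fin 3), Blk (xm r ((t.val : ℕ) : ZMod 3)) := by decide +kernel

theorem blk_one : Blk 1 := by
  intro i j hi hj
  have hij : i ≠ j := by
    rintro rfl
    rw [hi] at hj
    exact absurd hj (by decide)
  exact Matrix.one_apply_ne hij

theorem Blk.mul {M N : Matrix I14 I14 (ZMod 3)} (hM : Blk M) (hN : Blk N) : Blk (M * N) := by
  intro i j hi hj
  show (M * N) i j = 0
  rw [Matrix.mul_apply]
  refine Finset.sum_eq_zero fun k _ => ?_
  cases hk : sh k with
  | false =>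
    have h := hN k j hk hj
    change N k j = 0 at h
    rw [h, mul_zero]
  | true =>
    have h := hM i k hi hk
    change M i k = 0 at h
    rw [h, zero_mul]

theorem Blk.pow {M : Matrix I14 I14 (ZMod 3)} (hM : Blk M) (n : ℕ) : Blk (M ^ n) := by
  induction n with
  | zero => rw [pow_zero]; exact blk_one
  | succ n ih => rw [pow_succ]; exact ih.mul hM

/-- the trace on the submodule -/
def tr7 (M : Matrix I14 I14 (ZMod 3)) : ZMod 3 := ∑ i, if sh i = true then M i i else 0

theorem tr7_comm {M N : Matrix I14 I14 (ZMod 3)} (hM : Blk M) (hN : Blk N) : tr7 (M * N) = tr7 (N * M) := by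
  have key : ∀ {M N : Matrix I14 I14 (ZMod 3)}, Blk M → Blk N →
      tr7 (M * N) = ∑ i, ∑ j, if sh i = true ∧ sh j = true then M i j * N j i else 0 := by
    intro M N _ hN
    unfold tr7
    refine Finset.sum_congr rfl fun i _ => ?_
    by_cases hi : sh i = true
    · rw [if_pos hi, Matrix.mul_apply]
      refine Finset.sum_congr rfl fun j _ => ?_
      by_cases hj : sh j = true
      · rw [if_pos ⟨hi, hj⟩]
      · rw [if_neg fun h => hj h.2]
        have h := hN j i (by simpa using hj) hi
        change N j i = 0 at h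
        rw [h, mul_zero]
    · rw [if_neg hi]
      exact (Finset.sum_eq_zero fun j _ => if_neg fun h => hi h.1).symm
  rw [key hM hN, key hN hM, Finset.sum_comm]
  refine Finset.sum_congr rfl fun i _ => Finset.sum_congr rfl fun j _ => ?_
  by_cases h : sh i = true ∧ sh j = true
  · rw [if_pos h, if_pos h.symm, mul_comm]
  · rw [if_neg h, if_neg fun h' => h h'.symm]

/-- the elements of the group leave the subspace invariant -/
theorem blk_mem (g : ↥Gp) : Blk ((g : GL I14 (ZMod 3)) : Matrix I14 I14 (ZMod 3)) := by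
  have hfin : Finite ↥Gp := inferInstance
  let S : Subgroup (GL I14 (ZMod 3)) :=
    { carrier := {g | Blk (g : Matrix I14 I14 (ZMod 3))}
      one_mem' := by
        show Blk _
        rw [Units.val_one]
        exact blk_one
      mul_mem' := by
        intro a b ha hb
        show Blk _
        rw [Units.val_mul]
        exact Blk.mul ha hb
      inv_mem' := by
        intro a ha
        have hf : Finite (GL I14 (ZMod 3)) := inferInstance
        show Blk _
        have h1 : a⁻¹ = a ^ (orderOf a - 1) := by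
          rw [inv_eq_iff_mul_eq_one, ← pow_succ', Nat.sub_add_cancel (orderOf_pos a), pow_orderOf_eq_one]
        rw [h1, Units.val_pow_eq_pow_val]
        exact Blk.pow ha _ }
  have hle : Gp ≤ S := by
    change chevG2.group (ZMod 3) ≤ _
    unfold ChevalleyDatum.group
    refine (Subgroup.closure_le _).2 ?_
    rintro g ⟨r, t, hg⟩
    have hex : ∀ t : ZMod 3, ∃ s : Fin 3, t = ((s.val : ℕ) : ZMod 3) := by decide
    obtain ⟨s, rfl⟩ := hex t
    show Blk _
    rw [hg]
    exact blk_x r s
  exact hle g.2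

/-- **the class function** -/
def chi (g : ↥Gp) : ZMod 3 := tr7 ((g : GL I14 (ZMod 3)) : Matrix I14 I14 (ZMod 3))

theorem chi_comm (g h : ↥Gp) : chi (g * h) = chi (h * g) := by
  unfold chi
  rw [Subgroup.coe_mul, Subgroup.coe_mul, Units.val_mul, Units.val_mul]
  exact tr7_comm (blk_mem g) (blk_mem h)

theorem chi_conj (g x : ↥Gp) : chi (g * x * g⁻¹) = chi x := by
  have h : g⁻¹ * (g * x) = x := by rw [← mul_assoc, inv_mul_cancel, one_mul]
  rw [chi_comm, h]

/-! ### evaluation -/

/-- the code of the `i`-th unit vector -/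
def uv (i : ℕ) : ℕ := 2 ^ (12 * (13 - i))

theorem okR_uv : ∀ i < 14, OkR C3 (uv i) := by
  intro i hi
  have h : ∀ i < 14, uv i < 2 ^ (C3.s * C3.n) ∧ ∀ k < C3.n, dg C3.s (uv i) k < C3.p := by decide +kernel
  exact h i hi

theorem rowVec_uv : ∀ i : Fin C3.n, rowVec C3 (uv i.val) = Pi.single i (1 : ZMod C3.p) := by
  have h : ∀ i j : Fin C3.n, rowVec C3 (uv i.val) j = (Pi.single i (1 : ZMod C3.p) : Fin C3.n → ZMod C3.p) j := by
    decide +kernel
  intro i
  funext j
  exact h i j

/-- the entries of the value of a word -/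
theorem ev_entry (w : List ℕ) (i j : Fin C3.n) :
    ((ev X w : GL14) : Mat14) i j = (dg C3.s (run C3 (w.map cd) (uv i.val)) (C3.n - 1 - j) : ZMod C3.p) := by
  have h1 := (run_spec (good_of_check good3) (w.map cd) (ok_map w) (okR_uv i.val i.2)).2
  rw [rowVec_uv, Matrix.single_one_vecMul, ← ev_val] at h1
  have h2 := congrFun h1 j
  rw [rowVec_def] at h2
  exact h2.symm

/-- the value of the class function on a word -/
noncomputable def chiW (w : List ℕ) : ZMod 3 :=
  ∑ i : I14, if sh i = true then (dg 12 (run C3 (w.map cd) (uv (pos i))) (13 - pos i) : ZMod 3) else 0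

theorem chi_ev (w : List ℕ) : chi (ev y w) = chiW w := by
  unfold chi chiW tr7
  refine Finset.sum_congr rfl fun i _ => ?_
  by_cases hi : sh i = true
  · rw [if_pos hi, if_pos hi, ev_y, θ_val]
    refine (ev_entry w (e14 i) (e14 i)).trans ?_
    rw [e14_val]
    rfl
  · rw [if_neg hi, if_neg hi]

/-! ### the elements -/

def w1 : List ℕ := [0, 9, 18]

def w2 : List ℕ := [0, 9, 20]

def w9 : List ℕ := [12, 14]

def y1 : ↥Gp := ev y w1

def y2 : ↥Gp := ev y w2

def y9 : ↥Gp := ev y w9

/-- powers of a word -/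
def wp (w : List ℕ) : ℕ → List ℕ
  | 0 => []
  | n + 1 => wp w n ++ w

theorem ev_wp (w : List ℕ) (n : ℕ) : ev y (wp w n) = ev y w ^ n := by
  induction n with
  | zero => rw [wp, ev_nil, pow_zero]
  | succ n ih => rw [wp, ev_append, ih, pow_succ]

theorem chi_y1 : chi (y1 ^ 2) = 0 := by
  rw [y1, ← ev_wp, chi_ev]
  decide +kernel

theorem chi_y1' : chi (y1 ^ 6) = 0 := by
  rw [y1, ← ev_wp, chi_ev]
  decide +kernel

theorem chi_y2 : chi (y2 ^ 2) = 2 := by
  rw [y2, ← ev_wp, chi_ev]
  decide +kernel

theorem chi_one : chi 1 = 1 := by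
  have h : chi (ev y []) = 1 := by
    rw [chi_ev]
    decide +kernel
  rwa [ev_nil] at h

theorem y1_eight : y1 ^ 8 = 1 := by
  rw [y1, ← ev_wp]
  exact key _ [] (by decide +kernel)

theorem y2_eight : y2 ^ 8 = 1 := by
  rw [y2, ← ev_wp]
  exact key _ [] (by decide +kernel)

theorem y9_nine : y9 ^ 9 = 1 := by
  rw [y9, ← ev_wp]
  exact key _ [] (by decide +kernel)

theorem y1_four : y1 ^ 4 ≠ 1 := by
  intro h
  have h1 : chi (y1 ^ 4) = 2 := by
    rw [y1, ← ev_wp, chi_ev]
    decide +kernel
  rw [h, chi_one] at h1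
  exact absurd h1 (by decide)

theorem y2_four : y2 ^ 4 ≠ 1 := by
  intro h
  have h1 : chi (y2 ^ 4) = 2 := by
    rw [y2, ← ev_wp, chi_ev]
    decide +kernel
  rw [h, chi_one] at h1
  exact absurd h1 (by decide)

theorem y9_three : y9 ^ 3 ≠ 1 := by
  intro h
  have h1 : ((ev y (wp w9 3) : ↥Gp) : GL I14 (ZMod 3)) = 1 := by
    rw [ev_wp]
    change ((y9 ^ 3 : ↥Gp) : GL I14 (ZMod 3)) = 1
    rw [h]
    rfl
  rw [ev_y] at h1
  have h2 : ev X (wp w9 3) = 1 := by
    apply θ.injective
    rw [h1, map_one]
  have h3 := ev_entry (wp w9 3) (0 : Fin 14) (4 : Fin 14)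
  rw [h2] at h3
  revert h3
  decide +kernel

theorem orderOf_y1 : orderOf y1 = 8 := by
  have h := orderOf_eq_prime_pow (p := 2) (n := 2) (x := y1) (by simpa using y1_four) (by simpa using y1_eight)
  simpa using h

theorem orderOf_y2 : orderOf y2 = 8 := by
  have h := orderOf_eq_prime_pow (p := 2) (n := 2) (x := y2) (by simpa using y2_four) (by simpa using y2_eight)
  simpa using h

theorem orderOf_y9 : orderOf y9 = 9 := by
  have : Fact (Nat.Prime 3) := ⟨Nat.prime_three⟩
  have h := orderOf_eq_prime_pow (p := 3) (n := 1) (x := y9) (by simpa using y9_three) (by simpa using y9_nine)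
  simpa using h

/-- **the squares of `y1` and `y2` are not conjugate** -/
theorem not_conj (g : ↥Gp) : g * y1 ^ 2 * g⁻¹ ≠ y2 ^ 2 := by
  intro h
  have h1 := chi_conj g (y1 ^ 2)
  rw [h, chi_y1, chi_y2] at h1
  exact absurd h1 (by decide)

theorem not_conj' (g : ↥Gp) : g * y1 ^ 6 * g⁻¹ ≠ y2 ^ 2 := by
  intro h
  have h1 := chi_conj g (y1 ^ 6)
  rw [h, chi_y1', chi_y2] at h1
  exact absurd h1 (by decide)

end Cfsg.Agent.H815.G23
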